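/-!
For each half of the octad 5279: two trios through the octad and the sextet they determine.
-/

set_option autoImplicit false

namespace Cfsg.Agent.H12

/-- Half, two trio positions, sextet position. -/
def bisectData : List (Nat × Nat × Nat × Nat) :=
  [(4107, 0, 1, 166),
    (1172, 0, 1, 166),
    (5137, 0, 3, 204),
    (142, 0, 3, 204),
    (4229, 0, 5, 181),
    (1050, 0, 5, 181),
    (1161, 0, 7, 101),
    (4118, 0, 7, 101),
    (29, 0, 9, 3),
    (5250, 0, 9, 3),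
    (1031, 0, 11, 84),
    (4248, 0, 11, 84),
    (147, 0, 13, 23),
    (5132, 0, 13, 23),
    (1037, 1, 3, 86),
    (4242, 1, 3, 86),
    (153, 1, 4, 25),
    (5126, 1, 4, 25),
    (135, 1, 7, 20),
    (5144, 1, 7, 20),
    (1043, 1, 8, 87),
    (4236, 1, 8, 87),
    (4117, 1, 11, 169),
    (1162, 1, 11, 169),
    (5249, 1, 12, 207),
    (30, 1, 12, 207),
    (1155, 2, 3, 99),
    (4124, 2, 3, 99),
    (23, 2, 4, 1),
    (5256, 2, 4, 1),
    (4241, 2, 7, 183),
    (1038, 2, 7, 183),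
    (5125, 2, 8, 202),
    (154, 2, 8, 202),
    (141, 2, 11, 22),
    (5138, 2, 11, 22),
    (1049, 2, 12, 89),
    (4230, 2, 12, 89),
    (27, 3, 7, 2),
    (5252, 3, 7, 2),
    (149, 3, 8, 24),
    (5130, 3, 8, 24),
    (4233, 3, 9, 182),
    (1046, 3, 9, 182),
    (4103, 3, 10, 165),
    (1176, 3, 10, 165),
    (4109, 4, 7, 167),
    (1170, 4, 7, 167),
    (4227, 4, 8, 180),
    (1052, 4, 8, 180),
    (1035, 4, 9, 85),
    (4244, 4, 9, 85),
    (1157, 4, 10, 100),
    (4122, 4, 10, 100),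
    (5123, 5, 7, 201),
    (156, 5, 7, 201),
    (4121, 5, 8, 170),
    (1158, 5, 8, 170),
    (1169, 5, 9, 102),
    (4110, 5, 9, 102),
    (139, 5, 10, 21),
    (5140, 5, 10, 21),
    (1045, 6, 7, 88),
    (4234, 6, 7, 88),
    (15, 6, 8, 0),
    (5264, 6, 8, 0),
    (4115, 6, 9, 168),
    (1164, 6, 9, 168),
    (5129, 6, 10, 203),
    (150, 6, 10, 203)]

end Cfsg.Agent.H12
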