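import Cfsg.Agent.H12.StabRoots

/-!
Orbits of the stabiliser of a oct object on the trios.
-/

set_option autoImplicit false

namespace Cfsg.Agent.H12

open scoped Pointwise

theorem stabOctTrio_check15 : classCheck 3795 trioList trioImg stabOctGens rootOctMasks
    64 0 15 15 stabOctTrioTree15 = true := by
  decide +kernel

theorem stabOctTrio_check420 : classCheck 3795 trioList trioImg stabOctGens rootOctMasks
    32 16 420 420 stabOctTrioTree420 = true := by
  decide +kernel

theorem stabOctTrio_check3360 : classCheck 3795 trioList trioImg stabOctGens rootOctMasks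
    24 15 3360 3360 stabOctTrioTree3360 = true := by
  decide +kernel

theorem stabOctTrio_cover : classesCover 3795 trioList rootOctMasks [64, 32, 24] = true := by
  decide +kernel

/-- The orbits, as classes of `phi`. -/
theorem stabOctTrio_orbits (g : M24) :
    (∃ X ∈ trios, MulAction.orbit ↥(MulAction.stabilizer M24 (g • octSet 0)) X
        = phiClass famAOct famBTrio trios (g • octSet 0) 64 ∧
      (phiClass famAOct famBTrio trios (g • octSet 0) 64).ncard = 15) ∧
    (∃ X ∈ trios, MulAction.orbit ↥(MulAction.stabilizer M24 (g • octSet 0)) X
        = phiClass famAOct famBTrio trios (g • octSet 0) 32 ∧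
      (phiClass famAOct famBTrio trios (g • octSet 0) 32).ncard = 420) ∧
    (∃ X ∈ trios, MulAction.orbit ↥(MulAction.stabilizer M24 (g • octSet 0)) X
        = phiClass famAOct famBTrio trios (g • octSet 0) 24 ∧
      (phiClass famAOct famBTrio trios (g • octSet 0) 24).ncard = 3360) ∧
    (trios = phiClass famAOct famBTrio trios (g • octSet 0) 64 ∪ phiClass famAOct famBTrio trios (g • octSet 0) 32 ∪ phiClass famAOct famBTrio trios (g • octSet 0) 24) := by
  refine ⟨?_, ?_, ?_, ?_⟩
  · exact exists_orbit_of_smul (smul_famAOct) (smul_famBTrio) smul_mem_triosM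
      (orbit_eq_phiClass (famA := famAOct) (famB := famBTrio) (S := trios) (a := octSet 0)
        (dec := trioSet) (lst := trioList) (smul_famAOct) (smul_famBTrio) smul_mem_triosM
        trios_eq (by norm_num) trioSet_injOn lstTrio_spec rootOct_spec stabOctGens_spec
        imgTrio_spec stabOctTrio_check15) g
  · exact exists_orbit_of_smul (smul_famAOct) (smul_famBTrio) smul_mem_triosM
      (orbit_eq_phiClass (famA := famAOct) (famB := famBTrio) (S := trios) (a := octSet 0)
        (dec := trioSet) (lst := trioList) (smul_famAOct) (smul_famBTrio) smul_mem_triosM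
        trios_eq (by norm_num) trioSet_injOn lstTrio_spec rootOct_spec stabOctGens_spec
        imgTrio_spec stabOctTrio_check420) g
  · exact exists_orbit_of_smul (smul_famAOct) (smul_famBTrio) smul_mem_triosM
      (orbit_eq_phiClass (famA := famAOct) (famB := famBTrio) (S := trios) (a := octSet 0)
        (dec := trioSet) (lst := trioList) (smul_famAOct) (smul_famBTrio) smul_mem_triosM
        trios_eq (by norm_num) trioSet_injOn lstTrio_spec rootOct_spec stabOctGens_spec
        imgTrio_spec stabOctTrio_check3360) g
  · refine Set.ext fun x => ⟨fun hx => ?_, ?_⟩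
    · have := phi_mem_of_cover (famA := famAOct) (famB := famBTrio) (S := trios) (a := octSet 0)
        (dec := trioSet) (lst := trioList) (smul_famAOct) (smul_famBTrio) smul_mem_triosM
        trios_eq lstTrio_spec rootOct_spec stabOctTrio_cover g hx
      simp only [List.mem_cons, List.not_mem_nil, or_false] at this
      rcases this with h | h | h
      · exact Or.inl (Or.inl (⟨hx, h⟩))
      · exact Or.inl (Or.inr ⟨hx, h⟩)
      · exact Or.inr ⟨hx, h⟩
    · rintro ((h | h) | h) <;> exact h.1

end Cfsg.Agent.H12
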