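import Cfsg.Agent.H12.StabOctOct
import Cfsg.Agent.H12.StabOctTrio
import Cfsg.Agent.H12.Five
import Cfsg.Agent.H12.BisectData

/-!
The fifteen trios through an octad: double transitivity and the kernel of the action.
-/

set_option autoImplicit false

namespace Cfsg.Agent.H12

open scoped Pointwise

theorem mem_trio_check : (allBelow 12 3795 fun i =>
    Nat.beq (cond (memList 5279 (trioList i)) 1 0) (cond (Nat.blt i 15) 1 0)) = true := by
  decide +kernel

theorem mem_trio_phi_check : (allBelow 12 3795 fun i =>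
    Nat.beq (cond (Nat.beq (phiList [5279] (trioList i)) 64) 1 0) (cond (Nat.blt i 15) 1 0))
      = true := by
  decide +kernel

theorem octSet_zero_mem_trioSet {i : ℕ} (hi : i < 3795) :
    octSet 0 ∈ trioSet i ↔ i < 15 := by
  have h := allBelow_spec mem_trio_check hi
  rw [Nat.beq_eq] at h
  rw [octSet_zero, trioSet_eq, mem_fins]
  have hb : Nat.blt i 15 = true ↔ i < 15 := by rw [Nat.blt_eq]
  constructor
  · rintro ⟨m, hm, he⟩
    obtain rfl := fin_inj (isOctad_lt (by
      obtain ⟨ha, hb', hc, -⟩ := trio_props hi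
      simp only [trioList, List.mem_cons, List.not_mem_nil, or_false] at hm
      rcases hm with rfl | rfl | rfl
      exacts [ha, hb', hc])) (by norm_num) he
    have : memList 5279 (trioList i) = true := by
      generalize trioList i = L at hm
      induction L with
      | nil => simp at hm
      | cons b L ih =>
        show Bool.rec (memList 5279 L) true (Nat.beq 5279 b) = true
        cases hq : Nat.beq 5279 b
        · rw [← Bool.not_eq_true, Nat.beq_eq] at hq
          exact ih ((List.mem_cons.mp hm).resolve_left hq)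
        · rfl
    rw [this] at h
    apply hb.mp
    cases hq : Nat.blt i 15
    · rw [hq] at h; simp at h
    · rfl
  · intro hlt
    rw [hb.mpr hlt] at h
    cases hq : memList 5279 (trioList i)
    · rw [hq] at h; simp at h
    · exact ⟨_, memList_spec hq, rfl⟩

/-- A trio through the standard octad is one of the first fifteen. -/
theorem trio_through_base {T : Finset (Finset GolayPt)} (hT : T ∈ trios) (ho : octSet 0 ∈ T) :
    ∃ i < 15, T = trioSet i := by
  obtain ⟨i, hi, rfl⟩ := trios_eq ▸ hT
  exact ⟨i, (octSet_zero_mem_trioSet hi).mp ho, rfl⟩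

theorem trios_through_ncard (g : M24) :
    {T | T ∈ trios ∧ g • octSet 0 ∈ T}.ncard = 15 := by
  have hbase : {T | T ∈ trios ∧ octSet 0 ∈ T} = trioSet '' Set.Iio 15 := by
    ext T
    constructor
    · rintro ⟨hT, ho⟩
      obtain ⟨i, hi, rfl⟩ := trio_through_base hT ho
      exact ⟨i, hi, rfl⟩
    · rintro ⟨i, hi, rfl⟩
      rw [Set.mem_Iio] at hi
      exact ⟨trioSet_mem (by omega), (octSet_zero_mem_trioSet (by omega)).mpr hi⟩
  have : {T | T ∈ trios ∧ g • octSet 0 ∈ T} = g • {T | T ∈ trios ∧ octSet 0 ∈ T} := by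
    ext T
    rw [Set.mem_smul_set_iff_inv_smul_mem]
    simp only [Set.mem_ofPred_eq]
    constructor
    · rintro ⟨hT, ho⟩
      refine ⟨smul_mem_trios (M24.inv_mem g.2) hT, ?_⟩
      rw [Subgroup.smul_def, ← Finset.inv_smul_mem_iff]
      simpa [Subgroup.smul_def] using ho
    · rintro ⟨hT, ho⟩
      refine ⟨by simpa [Subgroup.smul_def] using smul_mem_trios g.2 hT, ?_⟩
      rw [Subgroup.smul_def, ← Finset.inv_smul_mem_iff] at ho
      simpa [Subgroup.smul_def] using ho
  rw [this, Set.ncard_smul_set, hbase, Set.InjOn.ncard_image, Set.ncard_Iio_nat]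
  exact trioSet_injOn.mono fun i (hi : i < 15) => by
    show i < 3795
    omega

theorem pairGens_check : (stabOctTrioPairGens.all fun x => genOK x && Nat.beq (imgFast x.2 5279) 5279 &&
    trioImg x.2 0 0) = true := by
  decide +kernel

theorem pairTree_check : (treeCheck 3795 stabOctTrioPairGens.length
    (fun k => trioImg (stabOctTrioPairGens.getD k (0, [])).2) 1 octTrioPairTree 14 &&
    coverCheck 3795 octTrioPairTree 14 (fun i => Nat.blt i 15 && !(Nat.beq i 0))) = true := by
  decide +kernel

theorem exists_map_first {i : ℕ} (hi : i < 15) :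
    ∃ g ∈ M24, g • octSet 0 = octSet 0 ∧ g • trioSet 0 = trioSet i := by
  obtain ⟨he, -, -⟩ := orbit_eq_phiClass (famA := famAOct) (famB := famBTrio) (S := trios)
    (a := octSet 0) (dec := trioSet) (lst := trioList) smul_famAOct smul_famBTrio smul_mem_triosM
    trios_eq (by norm_num) trioSet_injOn lstTrio_spec rootOct_spec stabOctGens_spec imgTrio_spec
    stabOctTrio_check15
  have hm : trioSet i ∈ phiClass famAOct famBTrio trios (octSet 0) 64 := by
    refine ⟨trioSet_mem (by omega), ?_⟩
    have h := allBelow_spec mem_trio_phi_check (show i < 3795 by omega)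
    rw [Nat.beq_eq, show Nat.blt i 15 = true by rw [Nat.blt_eq]; exact hi] at h
    show phi (famAOct (octSet 0)) (famBTrio (trioSet i)) = 64
    rw [rootOct_spec.1, (lstTrio_spec i (by omega)).1,
      phi_fins rootOct_spec.2 (lstTrio_spec i (by omega)).2]
    cases hq : Nat.beq (phiList [5279] (trioList i)) 64
    · rw [hq] at h; simp at h
    · exact Nat.beq_eq.to_iff.mp hq
  rw [← he] at hm
  obtain ⟨g, hg⟩ := hm
  exact ⟨g.1.1, g.1.2, g.2, hg⟩

theorem exists_map_second {i : ℕ} (hi : i < 15) (h0 : i ≠ 0) :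
    ∃ g ∈ M24, g • octSet 0 = octSet 0 ∧ g • trioSet 0 = trioSet 0 ∧ g • trioSet 1 = trioSet i := by
  obtain ⟨ht, hc⟩ := Bool.and_eq_true_iff.mp pairTree_check
  let H : Subgroup M24 :=
    MulAction.stabilizer M24 (octSet 0) ⊓ MulAction.stabilizer M24 (trioSet 0)
  have hgen : ∀ k < stabOctTrioPairGens.length, ∃ g : H,
      ((g : M24) : Equiv.Perm GolayPt) = permOf (stabOctTrioPairGens.getD k (0, [])).1 ∧
      genOK (stabOctTrioPairGens.getD k (0, [])) = true := by
    intro k hk
    have hmem : stabOctTrioPairGens.getD k (0, []) ∈ stabOctTrioPairGens := by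
      rw [List.getD_eq_getElem?_getD, List.getElem?_eq_getElem hk]
      exact List.getElem_mem hk
    have h := List.all_eq_true.mp pairGens_check _ hmem
    simp only [Bool.and_eq_true, Nat.beq_eq] at h
    obtain ⟨⟨hg, ho⟩, h00⟩ := h
    refine ⟨⟨⟨_, (genOK_spec hg).2.2⟩, ⟨?_, ?_⟩⟩, rfl, hg⟩
    · apply MulAction.mem_stabilizer_iff.mpr
      show permOf _ • octSet 0 = octSet 0
      rw [octSet_zero, smul_fin_fast hg (by norm_num), ho]
    · apply MulAction.mem_stabilizer_iff.mpr
      exact trioImg_spec hg (by norm_num) (by norm_num) h00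
  classical
  let gen : ℕ → H := fun k => if hk : k < stabOctTrioPairGens.length then (hgen k hk).choose else 1
  have himg : ∀ k < stabOctTrioPairGens.length, ∀ a < 3795, ∀ b < 3795,
      trioImg (stabOctTrioPairGens.getD k (0, [])).2 a b = true → gen k • trioSet a = trioSet b := by
    intro k hk a ha b hb hab
    obtain ⟨e1, e2⟩ := (hgen k hk).choose_spec
    simp only [gen, dif_pos hk]
    show (((hgen k hk).choose : M24) : Equiv.Perm GolayPt) • trioSet a = trioSet b
    rw [e1]
    exact trioImg_spec e2 ha hb hab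
  obtain ⟨g, hg⟩ := MulAction.mem_orbit_iff.mp (class_subset_orbit (dec := trioSet) himg ht hc
    (show i < 3795 by omega) (by
      simp only [Bool.and_eq_true, Nat.blt_eq, Bool.not_eq_true', ← Bool.not_eq_true, Nat.beq_eq]
      exact ⟨hi, h0⟩))
  exact ⟨g.1.1, g.1.2, g.2.1, g.2.2, hg⟩

theorem two_transitive_base {T₁ T₂ : Finset (Finset GolayPt)} (h₁ : T₁ ∈ trios) (h₂ : T₂ ∈ trios)
    (o₁ : octSet 0 ∈ T₁) (o₂ : octSet 0 ∈ T₂) (hne : T₁ ≠ T₂) :
    ∃ g ∈ M24, g • octSet 0 = octSet 0 ∧ g • trioSet 0 = T₁ ∧ g • trioSet 1 = T₂ := by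
  obtain ⟨i, hi, rfl⟩ := trio_through_base h₁ o₁
  obtain ⟨g, hg, hgo, hgT⟩ := exists_map_first hi
  have hgi : g⁻¹ • octSet 0 = octSet 0 := inv_smul_eq_iff.mpr hgo.symm
  have h2' := smul_mem_trios (M24.inv_mem hg) h₂
  have ho' : octSet 0 ∈ g⁻¹ • T₂ := by
    have h' : g⁻¹ • octSet 0 ∈ g⁻¹ • T₂ := Finset.smul_mem_smul_finset o₂
    rwa [hgi] at h'
  obtain ⟨j, hj, hje⟩ := trio_through_base h2' ho'
  have hj0 : j ≠ 0 := by
    rintro rfl
    apply hne
    rw [← hgT, ← hje, smul_inv_smul]
  obtain ⟨h, hh, hho, hhT, hh1⟩ := exists_map_second hj hj0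
  exact ⟨g * h, M24.mul_mem hg hh, by rw [mul_smul, hho, hgo], by rw [mul_smul, hhT, hgT],
    by rw [mul_smul, hh1, ← hje, smul_inv_smul]⟩

/-! ### The kernel -/

/-- The check on one entry of the certificate. -/
noncomputable def bisectOK (e : ℕ × ℕ × ℕ × ℕ) : Bool :=
  forceNat e.1 fun t => forceNat e.2.1 fun i => forceNat e.2.2.1 fun j => forceNat e.2.2.2 fun k =>
    Nat.blt i 15 && Nat.blt j 15 && Nat.blt k 1771 && memList t (sextList k) &&
      Nat.beq (trioA i) 5279 && Nat.beq (trioA j) 5279 &&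
      memList (Nat.land (trioB i) (trioB j)) (sextList k) &&
      memList (Nat.land (trioB i) (trioC j)) (sextList k) &&
      memList (Nat.land (trioC i) (trioB j)) (sextList k) &&
      memList (Nat.land (trioC i) (trioC j)) (sextList k) &&
      allList (sextList k) (fun m =>
        memList m [t, Nat.xor 5279 t] || Nat.beq (Nat.land m 5279) 0)

theorem bisect_check : bisectData.all bisectOK = true := by decide +kernel

theorem bisect_complete : (allList [0, 1, 2, 3, 4, 7, 10, 12] fun a =>
    allList [0, 1, 2, 3, 4, 7, 10, 12] fun b => allList [0, 1, 2, 3, 4, 7, 10, 12] fun c =>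
    allList [0, 1, 2, 3, 4, 7, 10, 12] fun d =>
      forceNat (1 <<< a ||| 1 <<< b ||| 1 <<< c ||| 1 <<< d) fun m =>
        !(Nat.beq (pop m) 4) || memList m (bisectData.map Prod.fst)) = true := by
  decide +kernel

theorem mem_octSet_zero {p : GolayPt} :
    p ∈ octSet 0 ↔ idx p ∈ [0, 1, 2, 3, 4, 7, 10, 12] := by
  rw [octSet_zero, mem_fin]
  have : ∀ i < 24, ((5279 : ℕ).testBit i = true ↔ i ∈ [0, 1, 2, 3, 4, 7, 10, 12]) := by
    decide +kernel
  exact this _ (idx_lt p)

/-- An element fixing the fifteen trios maps each half of the octad to itself or its opposite. -/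
theorem half_image {g : Equiv.Perm GolayPt} (hg : g ∈ M24) (ho : g • octSet 0 = octSet 0)
    (hT : ∀ i < 15, g • trioSet i = trioSet i) {a b c d : GolayPt} (ha : a ∈ octSet 0)
    (hb : b ∈ octSet 0) (hc : c ∈ octSet 0) (hd : d ∈ octSet 0)
    (hcard : ({a, b, c, d} : Finset GolayPt).card = 4) :
    g • ({a, b, c, d} : Finset GolayPt) = {a, b, c, d} ∨
      g • ({a, b, c, d} : Finset GolayPt) = octSet 0 \ {a, b, c, d} := by
  set t := 1 <<< idx a ||| 1 <<< idx b ||| 1 <<< idx c ||| 1 <<< idx d with htdef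
  have hset : fin t = ({a, b, c, d} : Finset GolayPt) := by
    rw [htdef, fin_lor, fin_lor, fin_lor, fin_shiftLeft_one (idx_lt a),
      fin_shiftLeft_one (idx_lt b), fin_shiftLeft_one (idx_lt c), fin_shiftLeft_one (idx_lt d),
      pt_idx, pt_idx, pt_idx, pt_idx]
    ext x; simp [or_assoc]
  have hp : pop t = 4 := by rw [← card_fin, hset, hcard]
  have h := allList_spec (allList_spec (allList_spec (allList_spec bisect_complete _
    (mem_octSet_zero.mp ha)) _ (mem_octSet_zero.mp hb)) _ (mem_octSet_zero.mp hc)) _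
    (mem_octSet_zero.mp hd)
  rw [forceNat_eq, ← htdef, hp, Nat.beq_refl, Bool.not_true, Bool.false_or] at h
  obtain ⟨⟨t', i, j, k⟩, hmem, hte⟩ := List.mem_map.mp (memList_spec h)
  change t' = t at hte
  rw [hte] at hmem
  clear hte
  have hok := List.all_eq_true.mp bisect_check _ hmem
  simp only [bisectOK, forceNat_eq, Bool.and_eq_true, Nat.blt_eq, Nat.beq_eq] at hok
  obtain ⟨⟨⟨⟨⟨⟨⟨⟨⟨⟨hi, hj⟩, hk⟩, htk⟩, hAi⟩, hAj⟩, hBB⟩, hBC⟩, hCB⟩, hCC⟩, hall⟩ := hok
  have himg : ∀ n < 15, trioA n = 5279 → ∀ x ∈ [trioB n, trioC n],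
      ∃ y ∈ [trioB n, trioC n], g • fin x = fin y := by
    intro n hn hA x hx
    obtain ⟨-, hxb, hxc, hab, hac, -⟩ := trio_props (show n < 3795 by omega)
    have hxmem : fin x ∈ trioSet n := by
      simp only [List.mem_cons, List.not_mem_nil, or_false] at hx
      rcases hx with rfl | rfl <;> simp [trioSet]
    have h1 : g • fin x ∈ g • trioSet n := Finset.smul_mem_smul_finset hxmem
    rw [hT n hn] at h1
    simp only [trioSet, Finset.mem_insert, Finset.mem_singleton] at h1
    rcases h1 with h1 | h1 | h1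
    · exfalso
      rw [hA] at h1
      have h2 : fin x = octSet 0 := smul_left_cancel g (by rw [h1, ho, octSet_zero])
      rw [octSet_zero] at h2
      have hd : Disjoint (fin 5279) (fin x) := by
        simp only [List.mem_cons, List.not_mem_nil, or_false] at hx
        rcases hx with rfl | rfl
        · exact disjoint_fin (hA ▸ hab)
        · exact disjoint_fin (hA ▸ hac)
      rw [h2, disjoint_self, Finset.bot_eq_empty, ← Finset.card_eq_zero, card_fin] at hd
      exact absurd hd (by decide +kernel)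
    · exact ⟨_, List.mem_cons_self .., h1⟩
    · exact ⟨_, List.mem_cons_of_mem _ (List.mem_cons_self ..), h1⟩
  obtain ⟨u, hu, hgu⟩ := himg i hi hAi (trioB i) (List.mem_cons_self ..)
  obtain ⟨v, hv, hgv⟩ := himg j hj hAj (trioB j) (List.mem_cons_self ..)
  have hin : ∀ u ∈ [trioB i, trioC i], ∀ v ∈ [trioB j, trioC j],
      fin u ∩ fin v ∈ sextSet k := by
    intro u hu v hv
    rw [← fin_land, sextSet, mem_fins]
    simp only [List.mem_cons, List.not_mem_nil, or_false] at hu hv
    rcases hu with rfl | rfl <;> rcases hv with rfl | rfl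
    exacts [⟨_, memList_spec hBB, rfl⟩, ⟨_, memList_spec hBC, rfl⟩, ⟨_, memList_spec hCB, rfl⟩,
      ⟨_, memList_spec hCC, rfl⟩]
  have hS : g • sextSet k = sextSet k := by
    refine sextet_ext (smul_mem_sextets hg (sextSet_mem hk)) (sextSet_mem hk)
      (t := g • (fin (trioB i) ∩ fin (trioB j))) (Finset.smul_mem_smul_finset (hin _
        (List.mem_cons_self ..) _ (List.mem_cons_self ..))) ?_
    rw [Finset.smul_finset_inter, hgu, hgv]
    exact hin _ hu _ hv
  have hgt : g • fin t ∈ sextSet k := by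
    rw [← hS]
    exact Finset.smul_mem_smul_finset (mem_fins.mpr ⟨t, memList_spec htk, rfl⟩)
  rw [sextSet, mem_fins] at hgt
  obtain ⟨m, hm, hme⟩ := hgt
  have hsub : fin t ⊆ octSet 0 := by
    rw [hset]
    simp [Finset.insert_subset_iff, ha, hb, hc, hd]
  rw [← hset, ← hme]
  have hh := allList_spec hall m hm
  rw [Bool.or_eq_true, Nat.beq_eq] at hh
  rcases hh with hh | hh
  · have := memList_spec hh
    simp only [List.mem_cons, List.not_mem_nil, or_false] at this
    rcases this with rfl | rfl
    · exact Or.inl rfl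
    · right
      rw [octSet_zero] at hsub ⊢
      ext p
      have hs : p ∈ fin t → p ∈ fin 5279 := fun h => hsub h
      rw [Finset.mem_sdiff, mem_fin, mem_fin, mem_fin]
      rw [mem_fin, mem_fin] at hs
      show ((5279 : ℕ) ^^^ t).testBit (idx p) = true ↔ _
      rw [Nat.testBit_xor]
      revert hs
      cases (5279 : ℕ).testBit (idx p) <;> cases t.testBit (idx p) <;> simp
  · exfalso
    have h1 : g • fin t ⊆ octSet 0 := by
      rw [← ho]
      exact Finset.smul_finset_subset_smul_finset hsub
    have hd : Disjoint (fin m) (fin 5279) := disjoint_fin hh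
    rw [← hme, octSet_zero] at h1
    have h0 : (fin m).card = 0 := by
      rw [Finset.card_eq_zero, ← Finset.inter_eq_left.mpr h1, ← Finset.disjoint_iff_inter_eq_empty]
      exact hd
    rw [hme, Finset.card_smul_finset, hset, hcard] at h0
    omega

theorem fix_of_fix_trios {g : Equiv.Perm GolayPt} (hg : g ∈ M24) (ho : g • octSet 0 = octSet 0)
    (hT : ∀ i < 15, g • trioSet i = trioSet i) : ∀ p ∈ octSet 0, g p = p := by
  intro p hp
  by_contra hpq
  have hmem : ∀ x ∈ octSet 0, g x ∈ octSet 0 := fun x hx => by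
    have h' : g x ∈ g • octSet 0 := Finset.smul_mem_smul_finset hx
    rwa [ho] at h'
  have hq := hmem p hp
  have hcard : (octSet 0).card = 8 := by rw [octSet_zero, card_fin]; decide +kernel
  have key : ∀ r ∈ octSet 0, r ≠ p → r ≠ g p → g r = g p := by
    intro r hr hrp hrq
    by_contra hne
    obtain ⟨s, hs, hsp, hsr, hsq, hss⟩ : ∃ s ∈ octSet 0, s ≠ p ∧ s ≠ r ∧ s ≠ g p ∧
        (g r = p ∨ g r = r ∨ g r = s) := by
      by_cases h1 : g r = p ∨ g r = r
      · obtain ⟨s, hs, hs'⟩ := Finset.exists_mem_notMem_of_card_lt_card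
          (s := ({p, r, g p} : Finset GolayPt)) (t := octSet 0)
          (lt_of_le_of_lt Finset.card_le_three (by omega))
        simp only [Finset.mem_insert, Finset.mem_singleton, not_or] at hs'
        exact ⟨s, hs, hs'.1, hs'.2.1, hs'.2.2, h1.imp id Or.inl⟩
      · rw [not_or] at h1
        exact ⟨g r, hmem r hr, h1.1, h1.2, hne, Or.inr (Or.inr rfl)⟩
    obtain ⟨u, hu, hu'⟩ := Finset.exists_mem_notMem_of_card_lt_card
      (s := ({p, r, g p, s} : Finset GolayPt)) (t := octSet 0)
      (lt_of_le_of_lt Finset.card_le_four (by omega))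
    simp only [Finset.mem_insert, Finset.mem_singleton, not_or] at hu'
    obtain ⟨hup, hur, huq, hus⟩ := hu'
    have hcard4 : ({p, r, s, u} : Finset GolayPt).card = 4 := by
      simp [hrp.symm, hsp.symm, Ne.symm hup, hsr.symm, Ne.symm hur, Ne.symm hus]
    rcases half_image hg ho hT hp hr hs hu hcard4 with e | e
    · have : g p ∈ g • ({p, r, s, u} : Finset GolayPt) :=
        Finset.smul_mem_smul_finset (by simp)
      rw [e] at this
      simp only [Finset.mem_insert, Finset.mem_singleton] at this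
      rcases this with h | h | h | h
      exacts [hpq h, hrq h.symm, hsq h.symm, huq h.symm]
    · have : g r ∈ g • ({p, r, s, u} : Finset GolayPt) :=
        Finset.smul_mem_smul_finset (by simp)
      rw [e, Finset.mem_sdiff] at this
      apply this.2
      rcases hss with h | h | h <;> simp [h]
  obtain ⟨r, hr, hr'⟩ := Finset.exists_mem_notMem_of_card_lt_card
    (s := ({p, g p} : Finset GolayPt)) (t := octSet 0)
    (lt_of_le_of_lt Finset.card_le_two (by omega))
  simp only [Finset.mem_insert, Finset.mem_singleton, not_or] at hr'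
  exact hr'.1 (g.injective (key r hr hr'.1 hr'.2))

theorem fix_trios_check : (allList (fix5.filter fun h =>
      Nat.beq (app h 7) 7 && Nat.beq (app h 10) 10 && Nat.beq (app h 12) 12) fun h =>
    allList [0, 1, 2, 3, 4, 5, 6, 7, 8, 9, 10, 11, 12, 13, 14] fun i =>
      memList (imgMask h (trioA i)) (trioList i) && memList (imgMask h (trioB i)) (trioList i)) =
        true := by
  decide +kernel

theorem fix_trios_of_fix {g : Equiv.Perm GolayPt} (hg : g ∈ M24)
    (hfix : ∀ p ∈ octSet 0, g p = p) : ∀ i < 15, g • trioSet i = trioSet i := by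
  intro i hi
  obtain ⟨h, hh, rfl⟩ := fix5_complete hg fun j hj => hfix _ (mem_octSet_zero.mpr (by
    rw [idx_pt (by omega)]
    simp only [List.mem_cons, List.not_mem_nil, or_false]; omega))
  have hfx : ∀ j < 24, j ∈ [0, 1, 2, 3, 4, 7, 10, 12] → app h j = j := fun j hj hm =>
    (permOf_fixed_iff (fix5_spec hh).1 hj).mp (hfix _ (mem_octSet_zero.mpr (by rwa [idx_pt hj])))
  have h1 := allList_spec (allList_spec fix_trios_check h (List.mem_filter.mpr ⟨hh, by
    simp [hfx 7 (by norm_num) (by simp), hfx 10 (by norm_num) (by simp),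
      hfx 12 (by norm_num) (by simp)]⟩)) i (by
        simp only [List.mem_cons, List.not_mem_nil, or_false]; omega)
  rw [Bool.and_eq_true] at h1
  obtain ⟨ha, -, -, hab, -⟩ := trio_props (show i < 3795 by omega)
  refine trio_ext (smul_mem_trios hg (trioSet_mem (by omega))) (trioSet_mem (by omega))
    (a := permOf h • fin (trioA i)) (b := permOf h • fin (trioB i)) ?_
    (Finset.smul_mem_smul_finset (by simp [trioSet]))
    (Finset.smul_mem_smul_finset (by simp [trioSet])) ?_ ?_
  · intro e
    have e' := smul_left_cancel _ e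
    have hd := disjoint_fin hab
    rw [← e', disjoint_self, Finset.bot_eq_empty, ← Finset.card_eq_zero,
      fin_card_of_isOctad ha] at hd
    omega
  · rw [smul_fin (fix5_spec hh).1, trioSet_eq, mem_fins]
    exact ⟨_, memList_spec h1.1, rfl⟩
  · rw [smul_fin (fix5_spec hh).1, trioSet_eq, mem_fins]
    exact ⟨_, memList_spec h1.2, rfl⟩

end Cfsg.Agent.H12
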