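import Cfsg.Agent.H12.Transitive

/-!
Standard objects and checked generators of their stabilisers.
-/

set_option autoImplicit false

namespace Cfsg.Agent.H12

open scoped Pointwise

/-- A standard pair of complementary dodecads. -/
noncomputable def dodPair0 : Finset (Finset GolayPt) := {dodSet 0, Finset.univ \ dodSet 0}

theorem smul_mem_octadsM : ∀ g ∈ M24, ∀ x ∈ octads, g • x ∈ octads :=
  fun _ hg _ hx => (smul_mem_octads hg).mpr hx

theorem smul_mem_triosM : ∀ g ∈ M24, ∀ x ∈ trios, g • x ∈ trios :=
  fun _ hg _ hx => smul_mem_trios hg hx

theorem smul_mem_sextetsM : ∀ g ∈ M24, ∀ x ∈ sextets, g • x ∈ sextets :=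
  fun _ hg _ hx => smul_mem_sextets hg hx

/-- The family attached to a stabilised object. -/
abbrev famAOct : Finset GolayPt → Finset (Finset GolayPt) := (fun o : Finset GolayPt => ({o} : Finset (Finset GolayPt)))

theorem smul_famAOct (g : Equiv.Perm GolayPt) (a : Finset GolayPt) :
    famAOct (g • a) = g • famAOct a := by
  exact (Finset.smul_finset_singleton a).symm

/-- The masks of the standard object. -/
def rootOctMasks : List ℕ := [5279]

theorem octSet_zero : octSet 0 = fin 5279 := by
  rw [octSet, show octMask 0 = 5279 by decide +kernel]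

theorem rootOct_spec : famAOct (octSet 0) = fins rootOctMasks ∧
    (fins rootOctMasks).card = rootOctMasks.length := by
  simp [octSet_zero, rootOctMasks, fins]

theorem stabOctGens_check : (stabOctGens.all fun x =>
    genOK x && Nat.beq (imgFast x.2 5279) 5279) = true := by
  decide +kernel

theorem stabOctGens_spec : ∀ x ∈ stabOctGens, genOK x = true ∧ permOf x.1 • octSet 0 = octSet 0 := by
  intro x hx
  have h := List.all_eq_true.mp stabOctGens_check x hx
  rw [Bool.and_eq_true, Nat.beq_eq] at h
  refine ⟨h.1, ?_⟩
  rw [octSet_zero, smul_fin_fast h.1 (by norm_num), h.2]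

/-- The family attached to a stabilised object. -/
abbrev famASext : Finset (Finset GolayPt) → Finset (Finset GolayPt) := (fun x : Finset (Finset GolayPt) => x)

theorem smul_famASext (g : Equiv.Perm GolayPt) (a : Finset (Finset GolayPt)) :
    famASext (g • a) = g • famASext a := by
  rfl

/-- The masks of the standard object. -/
def rootSextMasks : List ℕ := [15, 5264, 622848, 3416064, 4196928, 8536096]

theorem rootSext_spec : famASext (sextSet 0) = fins rootSextMasks ∧
    (fins rootSextMasks).card = rootSextMasks.length := by
  have he : sextList 0 = rootSextMasks := by decide +kernel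
  refine ⟨congrArg fins he, ?_⟩
  rw [← he]
  exact (sextList_spec (by norm_num)).2

theorem stabSextGens_check : (stabSextGens.all fun x =>
    genOK x && allList rootSextMasks (fun m => memList (imgFast x.2 m) rootSextMasks))
      = true := by
  decide +kernel

theorem rootSextMasks_lt : ∀ m ∈ rootSextMasks, m < 2 ^ 24 := by
  decide +kernel

theorem stabSextGens_spec : ∀ x ∈ stabSextGens,
    genOK x = true ∧ permOf x.1 • sextSet 0 = sextSet 0 := by
  intro x hx
  have h := List.all_eq_true.mp stabSextGens_check x hx
  rw [Bool.and_eq_true] at h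
  refine ⟨h.1, ?_⟩
  rw [show sextSet 0 = fins rootSextMasks from rootSext_spec.1]
  exact smul_fins_eq_self h.1 rootSextMasks_lt rootSext_spec.2 h.2

/-- The family attached to a stabilised object. -/
abbrev famATrio : Finset (Finset GolayPt) → Finset (Finset GolayPt) := (fun x : Finset (Finset GolayPt) => x)

theorem smul_famATrio (g : Equiv.Perm GolayPt) (a : Finset (Finset GolayPt)) :
    famATrio (g • a) = g • famATrio a := by
  rfl

/-- The masks of the standard object. -/
def rootTrioMasks : List ℕ := [5279, 1009728, 15762208]

theorem rootTrio_spec : famATrio (trioSet 0) = fins rootTrioMasks ∧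
    (fins rootTrioMasks).card = rootTrioMasks.length := by
  have he : trioList 0 = rootTrioMasks := by decide +kernel
  refine ⟨by rw [← he]; exact trioSet_eq 0, ?_⟩
  rw [← he]
  exact (trioList_spec (by norm_num)).2

theorem stabTrioGens_check : (stabTrioGens.all fun x =>
    genOK x && allList rootTrioMasks (fun m => memList (imgFast x.2 m) rootTrioMasks))
      = true := by
  decide +kernel

theorem rootTrioMasks_lt : ∀ m ∈ rootTrioMasks, m < 2 ^ 24 := by
  decide +kernel

theorem stabTrioGens_spec : ∀ x ∈ stabTrioGens,
    genOK x = true ∧ permOf x.1 • trioSet 0 = trioSet 0 := by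
  intro x hx
  have h := List.all_eq_true.mp stabTrioGens_check x hx
  rw [Bool.and_eq_true] at h
  refine ⟨h.1, ?_⟩
  rw [show trioSet 0 = fins rootTrioMasks from rootTrio_spec.1]
  exact smul_fins_eq_self h.1 rootTrioMasks_lt rootTrio_spec.2 h.2

/-- The family attached to a stabilised object. -/
abbrev famADodPair : Finset (Finset GolayPt) → Finset (Finset GolayPt) := (fun x : Finset (Finset GolayPt) => x)

theorem smul_famADodPair (g : Equiv.Perm GolayPt) (a : Finset (Finset GolayPt)) :
    famADodPair (g • a) = g • famADodPair a := by
  rfl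

/-- The masks of the standard object. -/
def rootDodPairMasks : List ℕ := [28637, 16748578]

theorem rootDodPair_spec : famADodPair (dodPair0) = fins rootDodPairMasks ∧
    (fins rootDodPairMasks).card = rootDodPairMasks.length := by
  have he : dodMask 0 = 28637 := by decide +kernel
  have he' : dodSet 0 = fin 28637 := by rw [dodSet, he]
  have hc : (Finset.univ : Finset GolayPt) \ dodSet 0 = fin 16748578 := by
    rw [he', ← fin_allMask_xor]
    rfl
  refine ⟨by show dodPair0 = _; rw [dodPair0, hc, he']; simp [rootDodPairMasks, fins], ?_⟩
  have hne : fin 28637 ≠ fin 16748578 := by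
    rw [ne_eq, fin_inj_iff (by norm_num) (by norm_num)]
    norm_num
  simp [rootDodPairMasks, fins, hne]

theorem stabDodPairGens_check : (stabDodPairGens.all fun x =>
    genOK x && allList rootDodPairMasks (fun m => memList (imgFast x.2 m) rootDodPairMasks))
      = true := by
  decide +kernel

theorem rootDodPairMasks_lt : ∀ m ∈ rootDodPairMasks, m < 2 ^ 24 := by
  decide +kernel

theorem stabDodPairGens_spec : ∀ x ∈ stabDodPairGens,
    genOK x = true ∧ permOf x.1 • dodPair0 = dodPair0 := by
  intro x hx
  have h := List.all_eq_true.mp stabDodPairGens_check x hx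
  rw [Bool.and_eq_true] at h
  refine ⟨h.1, ?_⟩
  rw [show dodPair0 = fins rootDodPairMasks from rootDodPair_spec.1]
  exact smul_fins_eq_self h.1 rootDodPairMasks_lt rootDodPair_spec.2 h.2

/-- The family attached to a member of `octads`. -/
abbrev famBOct : Finset GolayPt → Finset (Finset GolayPt) := (fun o : Finset GolayPt => ({o} : Finset (Finset GolayPt)))

theorem smul_famBOct (g : Equiv.Perm GolayPt) (x : Finset GolayPt) :
    famBOct (g • x) = g • famBOct x := by
  exact (Finset.smul_finset_singleton x).symm

theorem lstOct_spec : ∀ i < 759, famBOct (octSet i) = fins (octList1 i) ∧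
    (fins (octList1 i)).card = (octList1 i).length :=
  fun i _ => octList1_spec i

theorem imgOct_spec : ∀ x, genOK x = true → ∀ i < 759, ∀ j < 759, octImg x.2 i j = true →
    permOf x.1 • octSet i = octSet j :=
  fun _ h _ hi _ _ hc => octImg_spec h hi hc

/-- The family attached to a member of `trios`. -/
abbrev famBTrio : Finset (Finset GolayPt) → Finset (Finset GolayPt) := (fun x : Finset (Finset GolayPt) => x)

theorem smul_famBTrio (g : Equiv.Perm GolayPt) (x : Finset (Finset GolayPt)) :
    famBTrio (g • x) = g • famBTrio x := by
  rfl

theorem lstTrio_spec : ∀ i < 3795, famBTrio (trioSet i) = fins (trioList i) ∧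
    (fins (trioList i)).card = (trioList i).length :=
  fun _ hi => trioList_spec hi

theorem imgTrio_spec : ∀ x, genOK x = true → ∀ i < 3795, ∀ j < 3795, trioImg x.2 i j = true →
    permOf x.1 • trioSet i = trioSet j :=
  fun _ h _ hi _ hj hc => trioImg_spec h hi hj hc

/-- The family attached to a member of `sextets`. -/
abbrev famBSext : Finset (Finset GolayPt) → Finset (Finset GolayPt) := (fun x : Finset (Finset GolayPt) => x)

theorem smul_famBSext (g : Equiv.Perm GolayPt) (x : Finset (Finset GolayPt)) :
    famBSext (g • x) = g • famBSext x := by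
  rfl

theorem lstSext_spec : ∀ i < 1771, famBSext (sextSet i) = fins (sextList i) ∧
    (fins (sextList i)).card = (sextList i).length :=
  fun _ hi => sextList_spec hi

theorem imgSext_spec : ∀ x, genOK x = true → ∀ i < 1771, ∀ j < 1771, sextImg x.2 i j = true →
    permOf x.1 • sextSet i = sextSet j :=
  fun _ h _ hi _ hj hc => sextImg_spec h hi hj hc

end Cfsg.Agent.H12
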