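import Cfsg.Agent.H13.Bridge
import Cfsg.Agent.H11.OctadStab
import Cfsg.Agent.H11.SextetStruct
import Cfsg.Agent.H11.TrioOrbits
import Cfsg.Agent.H12.Enum
import Cfsg.Agent.H12.StabRoots
import Cfsg.Agent.H12.OddIndexData

/-!
A proper subgroup of odd index in `M24` fixes an octad, a trio or a sextet.
-/

set_option autoImplicit false

namespace Cfsg.Agent.H12

open MulAction
open scoped Pointwise

/-- The Sylow 2-subgroup of the certificate. -/
noncomputable def p2 : Subgroup (Equiv.Perm GolayPt) := H13.grp p2Gens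

theorem p2_valid : p2Gens.all (H13.validB 24) = true := by decide +kernel

theorem p2_check : H13.check 24 p2Levels p2Gens = true := by decide +kernel

theorem card_p2 : Nat.card p2 = 1024 := by
  rw [p2, H13.card_grp p2Levels p2_valid p2_check]
  decide +kernel

theorem p2_le : p2 ≤ M24 := H13.grp_le_M24 p2_valid (by decide +kernel)

theorem p2_fix_root : p2 ≤ stabilizer (Equiv.Perm GolayPt) (fin 5279) :=
  H13.grp_le_stabilizer_fin p2_valid (by decide +kernel)

theorem img_toFin_permOf {c : ℕ} (hc : isPerm c = true) :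
    H13.img (H13.toFin (permOf c)) = (List.range 24).map (app c) := by
  refine List.ext_getElem (by simp [H13.img]) fun i h1 h2 => ?_
  have hi : i < 24 := by simpa using h2
  simp only [H13.img, List.getElem_ofFn, List.getElem_map, List.getElem_range, H13.toFin_apply]
  rw [permOf_pt hc hi, idx_pt (app_lt hc hi)]

/-- The sifting test for membership in the Sylow 2-subgroup. -/
def inP2 (c : ℕ) : Bool :=
  isPerm c && H13.sift 24 (H13.chain 24 p2Levels p2Gens) ((List.range 24).map (app c))

theorem permOf_mem_p2 {c : ℕ} (h : inP2 c = true) : isPerm c = true ∧ permOf c ∈ p2 := by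
  rw [inP2, Bool.and_eq_true] at h
  refine ⟨h.1, H13.mem_grp_of_sift p2Levels p2_valid p2_check _ ?_⟩
  rw [img_toFin_permOf h.1]
  exact h.2

theorem p2Codes_check : (p2Codes.all inP2 && inP2 p2Move12 && inP2 p2Move13 &&
    H11.octad0Fix.all inP2) = true := by decide +kernel

theorem fix_le_p2 : H11.fixM24 (fin 5279) ≤ p2 := by
  intro g hg
  obtain ⟨c, hc, rfl⟩ := H11.exists_of_mem_fixM24_octad0 (g := g) hg
  have h := p2Codes_check
  simp only [Bool.and_eq_true, List.all_eq_true] at h
  exact (permOf_mem_p2 (h.2 c hc)).2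

/-! ### The orbits on octads -/

/-- The depth of an octad in the forest. -/
noncomputable def p2Depth (i : ℕ) : ℕ := Nat.shiftRight (tblGet 32 p2Forest i) 16

theorem p2Forest_check : (allBelow 10 759 fun i =>
    forceNat (tblGet 32 p2Forest i) fun v => forceNat (Nat.land v 4095) fun p =>
      forceNat (Nat.land (Nat.shiftRight v 12) 15) fun k =>
      forceNat (Nat.shiftRight v 16) fun d =>
      (Nat.beq d 0 && memList (octMask i) p2Reps) ||
        (Nat.blt p 759 && Nat.blt k p2Codes.length && Nat.beq (Nat.succ (p2Depth p)) d &&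
          Nat.beq (imgMask (chunkGet p2Codes k) (octMask p)) (octMask i))) = true := by
  decide +kernel

theorem octad_rep_aux : ∀ d, ∀ i < 759, p2Depth i = d →
    ∃ r ∈ p2Reps, ∃ p ∈ p2, octSet i = p • fin r := by
  intro d
  induction d using Nat.strong_induction_on with
  | _ d ih =>
    intro i hi hd
    have h := allBelow_spec p2Forest_check hi
    simp only [forceNat_eq, Bool.or_eq_true, Bool.and_eq_true, Nat.beq_eq, Nat.blt_eq] at h
    rcases h with ⟨-, hm⟩ | ⟨⟨⟨hp, hk⟩, hs⟩, hm⟩
    · exact ⟨_, memList_spec hm, 1, p2.one_mem, by rw [one_smul]; rfl⟩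
    · have hs' : p2Depth (Nat.land (tblGet 32 p2Forest i) 4095) + 1 = d := hs.trans hd
      obtain ⟨r, hr, q, hq, he⟩ := ih _ (by omega) _ hp rfl
      have hc := p2Codes_check
      simp only [Bool.and_eq_true, List.all_eq_true] at hc
      obtain ⟨hcp, hcm⟩ := permOf_mem_p2 (hc.1.1.1 _ (chunkGet_mem _ _ hk))
      refine ⟨r, hr, _, p2.mul_mem hcm hq, ?_⟩
      rw [mul_smul, ← he, octSet, octSet, smul_fin hcp, hm]

theorem octad_rep {o : Finset GolayPt} (ho : o ∈ octads) :
    ∃ r ∈ p2Reps, ∃ p ∈ p2, o = p • fin r := by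
  rw [octads_eq] at ho
  obtain ⟨i, hi, rfl⟩ := ho
  exact octad_rep_aux _ i hi rfl

theorem p2Bad_check : (p2Bad.all fun e =>
    (e.2.1.all fun c => fixesCode c &&
      (List.range 24).all fun i => !(e.1.testBit i) || Nat.beq (app c i) i) &&
    H11.slpOK (pone :: p2Codes ++ e.2.1) e.2.2 &&
    H11.genPerms.all fun c => memList c (H11.slpPerms (pone :: p2Codes ++ e.2.1) e.2.2)) = true := by
  decide +kernel

theorem p2Reps_cases : (p2Reps.all fun r => memList r p2Good || memList r (p2Bad.map Prod.fst))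
    = true := by
  decide +kernel

theorem p2Lists_check : (p2Codes.all fun c =>
    (p2Trio.all fun a => memList (imgMask c a) p2Trio) &&
    (p2Pairs.all fun a => memList (imgMask c a) p2Pairs)) = true := by
  decide +kernel

theorem p2Pairs_meet : (p2Pairs.all fun a => p2Pairs.all fun b =>
    !(Nat.beq (pop (a &&& b)) 4) || memList (a &&& b) p2Sext) = true := by
  decide +kernel

theorem p2Good_check : ∃ r9 r12 r13, p2Good = [5279, r9, r12, r13] ∧
    pop (5279 &&& r9) = 4 ∧ pop (r12 &&& imgMask p2Move12 r12) = 4 ∧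
    p2Good.all (fun r => memList r p2Pairs) = true ∧
    5279 ∈ p2Trio ∧ r13 ∈ p2Trio ∧
    (∀ a ∈ p2Trio, a = 5279 ∨ a = r13 ∨ a = imgMask p2Move13 r13) := by
  refine ⟨_, _, _, rfl, ?_⟩
  decide +kernel

theorem trioSet_ten : trioSet 10 = fins p2Trio := by
  have h : trioA 10 = p2Trio.getD 0 0 ∧ trioB 10 = p2Trio.getD 1 0 ∧ trioC 10 = p2Trio.getD 2 0 := by
    decide +kernel
  rw [trioSet, h.1, h.2.1, h.2.2]
  simp [fins, p2Trio]

theorem sextSet_twentyOne : sextSet 21 = fins p2Sext := by
  rw [sextSet, show sextList 21 = p2Sext by decide +kernel]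

theorem p2_le_stabilizer_fins {L : List ℕ}
    (h : ∀ c ∈ p2Codes, ∀ a ∈ L, imgMask c a ∈ L) {p : Equiv.Perm GolayPt} (hp : p ∈ p2)
    {a : Finset GolayPt} (ha : a ∈ fins L) : p • a ∈ fins L := by
  have hle : p2 ≤ stabilizer (Equiv.Perm GolayPt) (fins L) := by
    apply H13.grp_le p2_valid
    intro b hb g hg
    have hc : pack b.1 ∈ p2Codes := by
      have : ∀ b ∈ p2Gens, pack b.1 ∈ p2Codes := by decide +kernel
      exact this b hb
    rw [mem_stabilizer_iff]
    refine Finset.eq_of_subset_of_card_le (fun x hx => ?_) (by rw [Finset.card_smul_finset])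
    obtain ⟨y, hy, rfl⟩ := Finset.mem_smul_finset.mp hx
    obtain ⟨m, hm, rfl⟩ := mem_fins.mp hy
    have h2 := smul_fin (H13.permOf_pack_img (H13.toFin g)).1 m
    rw [(H13.permOf_pack_img _).2, H13.toFin.symm_apply_apply, hg] at h2
    rw [h2]
    exact mem_fins.mpr ⟨_, h _ hc m hm, rfl⟩
  have hst := hle hp
  rw [mem_stabilizer_iff] at hst
  rw [← hst]
  exact Finset.smul_mem_smul_finset ha

theorem card_inter_smul (g : Equiv.Perm GolayPt) (s t : Finset GolayPt) :
    (g • s ∩ g • t).card = (s ∩ t).card := by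
  rw [← Finset.smul_finset_inter, Finset.card_smul_finset]

/-- A group between the Sylow 2-subgroup and `M24` fixes the octad, the trio or the sextet,
or is everything. -/
theorem over_p2_cases {K : Subgroup (Equiv.Perm GolayPt)} (hK : K ≤ M24) (hP : p2 ≤ K) :
    K = M24 ∨ (∀ k ∈ K, k • fin 5279 = fin 5279) ∨ (∀ k ∈ K, k • fins p2Trio = fins p2Trio) ∨
      (∀ k ∈ K, k • fins p2Sext = fins p2Sext) := by
  classical
  by_cases htop : K = M24
  · exact Or.inl htop
  obtain ⟨r9, r12, r13, hgood, h9, h12, hgp, hT0, hT13, hT⟩ := p2Good_check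
  have hO : fin 5279 ∈ octads := H11.fin_octad0_mem
  have hpO : ∀ p ∈ p2, p • fin 5279 = fin 5279 := fun p hp => mem_stabilizer_iff.mp (p2_fix_root hp)
  -- no image of the octad is a bad representative
  have hbad : ∀ k ∈ K, ∀ e ∈ p2Bad, k • fin 5279 ≠ fin e.1 := by
    intro k hk e he hke
    apply htop
    have h := List.all_eq_true.mp p2Bad_check e he
    simp only [Bool.and_eq_true, List.all_eq_true, Bool.or_eq_true, Bool.not_eq_true',
      Nat.beq_eq, List.mem_range] at h
    obtain ⟨⟨hE, hslp⟩, hgen⟩ := h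
    have hc := p2Codes_check
    simp only [Bool.and_eq_true, List.all_eq_true] at hc
    have hseed : ∀ c ∈ pone :: p2Codes ++ e.2.1, isPerm c = true ∧ permOf c ∈ K := by
      intro c hcm
      simp only [List.cons_append, List.mem_cons, List.mem_append] at hcm
      rcases hcm with rfl | hcm | hcm
      · exact ⟨pone_spec.1, pone_spec.2 ▸ K.one_mem⟩
      · exact ⟨(permOf_mem_p2 (hc.1.1.1 c hcm)).1, hP (permOf_mem_p2 (hc.1.1.1 c hcm)).2⟩
      · obtain ⟨hcode, hfix⟩ := hE c hcm
        have hcp : isPerm c = true := by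
          rw [fixesCode, Bool.and_eq_true] at hcode
          exact hcode.1
        refine ⟨hcp, ?_⟩
        have hmem : permOf c ∈ H11.fixM24 (fin e.1) := by
          refine H11.mem_fixM24.mpr ⟨permOf_mem_M24 hcode, fun x hx => ?_⟩
          rw [mem_fin] at hx
          rw [← pt_idx x, permOf_pt hcp (idx_lt x),
            (hfix (idx x) (idx_lt x)).resolve_left (by simp [hx])]
        have h1 := H11.conj_mem_fixM24 (M24.inv_mem (hK hk)) hmem
        rw [← hke, inv_smul_smul, inv_inv] at h1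
        have h2 := K.mul_mem (K.mul_mem hk (hP (fix_le_p2 h1))) (K.inv_mem hk)
        have h3 : k * (k⁻¹ * permOf c * k) * k⁻¹ = permOf c := by group
        rwa [h3] at h2
    refine le_antisymm hK (H11.m24Gens_eq ▸ ?_)
    rw [H11.m24Gens, Subgroup.closure_le]
    have hall := fun c hc => (H11.slp_mem K _ _ hseed hslp c (memList_spec (hgen c hc))).2
    rintro g (rfl | rfl | rfl)
    · rw [← H11.permOf_shift]; exact hall _ (by decide +kernel)
    · rw [← H11.permOf_projInv]; exact hall _ (by decide +kernel)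
    · rw [← H11.permOf_cubeTwist]; exact hall _ (by decide +kernel)
  -- so every image is equivalent to one of the four representatives
  have hrep : ∀ k ∈ K, ∃ r ∈ p2Good, ∃ p ∈ p2, k • fin 5279 = p • fin r := by
    intro k hk
    obtain ⟨r, hr, p, hp, he⟩ := octad_rep ((smul_mem_octads (hK hk)).mpr hO)
    refine ⟨r, ?_, p, hp, he⟩
    have h := List.all_eq_true.mp p2Reps_cases r hr
    rw [Bool.or_eq_true] at h
    rcases h with h | h
    · exact memList_spec h
    · obtain ⟨e, he', rfl⟩ := List.mem_map.mp (memList_spec h)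
      exact absurd (by rw [mul_smul, he, inv_smul_smul])
        (hbad _ (K.mul_mem (K.inv_mem (hP hp)) hk) e he')
  have hlist := p2Lists_check
  simp only [Bool.and_eq_true, List.all_eq_true] at hlist
  have hA : ∀ k ∈ K, k • fin 5279 ∈ fins p2Pairs := by
    intro k hk
    obtain ⟨r, hr, p, hp, he⟩ := hrep k hk
    rw [he]
    exact p2_le_stabilizer_fins (fun c hc a ha => memList_spec ((hlist c hc).2 a ha)) hp
      (mem_fins.mpr ⟨r, memList_spec (List.all_eq_true.mp hgp r hr), rfl⟩)
  by_cases hcase : ∃ k ∈ K, (fin 5279 ∩ k • fin 5279).card = 4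
  · right; right; right
    obtain ⟨k, hk, h4⟩ := hcase
    have hin : ∀ a ∈ fins p2Pairs, ∀ b ∈ fins p2Pairs, (a ∩ b).card = 4 → a ∩ b ∈ fins p2Sext := by
      intro a ha b hb hab
      obtain ⟨m, hm, rfl⟩ := mem_fins.mp ha
      obtain ⟨n, hn, rfl⟩ := mem_fins.mp hb
      rw [← fin_land] at hab ⊢
      rw [card_fin] at hab
      have h := List.all_eq_true.mp (List.all_eq_true.mp p2Pairs_meet m hm) n hn
      rw [hab] at h
      exact mem_fins.mpr ⟨_, memList_spec h, rfl⟩
    have hX : fins p2Sext ∈ sextets := sextSet_twentyOne ▸ sextSet_mem (by norm_num)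
    have ht := hin _ (by simpa using hA 1 K.one_mem) _ (hA k hk) h4
    intro h hh
    refine sextet_ext (smul_mem_sextetsM h (hK hh) _ hX) hX (Finset.smul_mem_smul_finset ht) ?_
    rw [Finset.smul_finset_inter, ← mul_smul]
    refine hin _ (hA h hh) _ (hA _ (K.mul_mem hh hk)) ?_
    rw [mul_smul, card_inter_smul]
    exact h4
  push Not at hcase
  have hmeet : ∀ g ∈ K, ∀ h ∈ K, (g • fin 5279 ∩ h • fin 5279).card ≠ 4 := by
    intro g hg h hh he
    refine hcase _ (K.mul_mem (K.inv_mem hg) hh) ?_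
    rw [← he, ← card_inter_smul g (fin 5279), ← mul_smul, mul_inv_cancel_left]
  have hc := p2Codes_check
  simp only [Bool.and_eq_true] at hc
  obtain ⟨hq12p, hq12⟩ := permOf_mem_p2 hc.1.1.2
  obtain ⟨hq13p, hq13⟩ := permOf_mem_p2 hc.1.2
  -- the images lie in the trio
  have hrep' : ∀ k ∈ K, ∃ r, (r = 5279 ∨ r = r13) ∧ ∃ p ∈ p2, k • fin 5279 = p • fin r := by
    intro k hk
    obtain ⟨r, hr, p, hp, he⟩ := hrep k hk
    simp only [hgood, List.mem_cons, List.not_mem_nil, or_false] at hr
    rcases hr with hr | rfl | rfl | hr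
    · exact ⟨r, Or.inl hr, p, hp, he⟩
    · exfalso
      refine hmeet 1 K.one_mem k hk ?_
      rw [one_smul, he, ← hpO p hp, card_inter_smul, ← fin_land, card_fin, h9]
    · exfalso
      have e1 : (p⁻¹ * k) • fin 5279 = fin r := by rw [mul_smul, he, inv_smul_smul]
      refine hmeet (p⁻¹ * k) (K.mul_mem (K.inv_mem (hP hp)) hk) (permOf p2Move12 * (p⁻¹ * k))
        (K.mul_mem (hP hq12) (K.mul_mem (K.inv_mem (hP hp)) hk)) ?_
      rw [mul_smul (permOf p2Move12), e1, smul_fin hq12p, ← fin_land, card_fin, h12]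
    · exact ⟨r, Or.inr hr, p, hp, he⟩
  by_cases hfix : ∀ k ∈ K, k • fin 5279 = fin 5279
  · exact Or.inr (Or.inl hfix)
  right; right; left
  push Not at hfix
  obtain ⟨k, hk, hne⟩ := hfix
  obtain ⟨r, hr, p, hp, he⟩ := hrep' k hk
  rcases hr with rfl | rfl
  · exact absurd (he.trans (hpO p hp)) hne
  have e1 : (p⁻¹ * k) • fin 5279 = fin r := by rw [mul_smul, he, inv_smul_smul]
  have hk' : p⁻¹ * k ∈ K := K.mul_mem (K.inv_mem (hP hp)) hk
  have hsub : ∀ g ∈ K, g • fin 5279 ∈ fins p2Trio := by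
    intro g hg
    obtain ⟨s, hs, q, hq, hgq⟩ := hrep' g hg
    rw [hgq]
    refine p2_le_stabilizer_fins (fun c hc a ha => memList_spec ((hlist c hc).1 a ha)) hq ?_
    rcases hs with rfl | rfl
    · exact mem_fins.mpr ⟨_, hT0, rfl⟩
    · exact mem_fins.mpr ⟨_, hT13, rfl⟩
  intro h hh
  refine Finset.eq_of_subset_of_card_le (fun x hx => ?_) (by rw [Finset.card_smul_finset])
  obtain ⟨y, hy, rfl⟩ := Finset.mem_smul_finset.mp hx
  obtain ⟨m, hm, rfl⟩ := mem_fins.mp hy
  rcases hT m hm with rfl | rfl | rfl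
  · exact hsub h hh
  · rw [← e1, ← mul_smul]
    exact hsub _ (K.mul_mem hh hk')
  · rw [← smul_fin hq13p, ← e1, ← mul_smul, ← mul_smul]
    exact hsub _ (K.mul_mem (K.mul_mem hh (hP hq13)) hk')

/-- A proper subgroup of odd index fixes an octad, a trio or a sextet. -/
theorem odd_index_cases (H : Subgroup M24) (h : Odd H.index) :
    H = ⊤ ∨ (∃ o ∈ octads, H ≤ stabilizer M24 o) ∨ (∃ T ∈ trios, H ≤ stabilizer M24 T) ∨
      ∃ S ∈ sextets, H ≤ stabilizer M24 S := by
  classical
  haveI : Fact (Nat.Prime 2) := ⟨Nat.prime_two⟩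
  have hdvd : 2 ^ 10 ∣ Nat.card H := by
    have h1 : 2 ^ 10 ∣ Nat.card H * H.index := by
      rw [H.card_mul_index, H11.card_M24]; norm_num
    exact Nat.Coprime.dvd_of_dvd_mul_right ((Nat.coprime_two_left.mpr h).pow_left 10) h1
  obtain ⟨R, hR⟩ := Sylow.exists_subgroup_card_pow_prime 2 hdvd
  let P : Subgroup M24 := p2.subgroupOf M24
  have hPc : Nat.card P = 2 ^ 10 := by
    rw [Nat.card_congr (Subgroup.subgroupOfEquivOfLe p2_le).toEquiv, card_p2]; norm_num
  have hRc : Nat.card (R.map H.subtype) = 2 ^ 10 := by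
    rw [Subgroup.card_map_of_injective H.subtype_injective, hR]
  obtain ⟨S0, hS0⟩ := (IsPGroup.of_card hPc).exists_le_sylow
  obtain ⟨S1, hS1⟩ := (IsPGroup.of_card hRc).exists_le_sylow
  have hmax : ∀ S : Sylow 2 M24, Nat.card S ≤ 2 ^ 10 := by
    intro S
    obtain ⟨n, hn⟩ := IsPGroup.iff_card.mp S.isPGroup'
    have hd : Nat.card S ∣ 244823040 := H11.card_M24 ▸ Subgroup.card_subgroup_dvd_card _
    rw [hn] at hd ⊢
    by_contra hlt
    have : 11 ≤ n := by
      by_contra h'
      exact hlt (Nat.pow_le_pow_right (by norm_num) (by omega))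
    have := (pow_dvd_pow 2 this).trans hd
    norm_num at this
  have e1 : R.map H.subtype = S1 := Subgroup.eq_of_le_of_card_ge hS1 (by rw [hRc]; exact hmax S1)
  obtain ⟨g, hg⟩ := MulAction.exists_smul_eq M24 S0 S1
  have hconj : ∀ x ∈ P, g * x * g⁻¹ ∈ H := by
    intro x hx
    have h1 : g * x * g⁻¹ ∈ (S1 : Subgroup M24) := by
      rw [← hg]
      exact Subgroup.smul_mem_pointwise_smul _ (MulAut.conj g) _ (hS0 hx)
    rw [← e1] at h1
    obtain ⟨y, -, hy⟩ := h1
    rw [← hy]
    exact y.2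
  let H' : Subgroup M24 := H.comap (MulAut.conj g).toMonoidHom
  have hK : H'.map M24.subtype ≤ M24 := Subgroup.map_subtype_le _
  have hPK : p2 ≤ H'.map M24.subtype := fun x hx =>
    ⟨⟨x, p2_le hx⟩, hconj ⟨x, p2_le hx⟩ hx, rfl⟩
  have hfix : ∀ {β : Type} [MulAction (Equiv.Perm GolayPt) β] (b : β),
      (∀ k ∈ H'.map M24.subtype, k • b = b) →
        H ≤ stabilizer M24 ((g : Equiv.Perm GolayPt) • b) := by
    intro β _ b hb y hy
    have h1 := hb (g⁻¹ * y * g : M24) ⟨g⁻¹ * y * g, by
      show g * (g⁻¹ * y * g) * g⁻¹ ∈ H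
      rw [show g * (g⁻¹ * y * g) * g⁻¹ = y by group]
      exact hy, rfl⟩
    rw [mem_stabilizer_iff]
    show (y : Equiv.Perm GolayPt) • (g : Equiv.Perm GolayPt) • b = (g : Equiv.Perm GolayPt) • b
    calc _ = (g : Equiv.Perm GolayPt) • ((g⁻¹ * y * g : M24) : Equiv.Perm GolayPt) • b := by
          rw [← mul_smul, ← mul_smul]
          congr 1
          push_cast
          group
      _ = _ := by rw [h1]
  rcases over_p2_cases hK hPK with hc | hc | hc | hc
  · refine Or.inl (eq_top_iff.mpr fun y _ => ?_)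
    obtain ⟨z, hz, he⟩ : ((g⁻¹ * y * g : M24) : Equiv.Perm GolayPt) ∈ H'.map M24.subtype := by
      rw [hc]; exact (g⁻¹ * y * g).2
    have hz' : g * z * g⁻¹ ∈ H := hz
    rw [Subtype.ext he] at hz'
    rwa [show g * (g⁻¹ * y * g) * g⁻¹ = y by group] at hz'
  · exact Or.inr (Or.inl ⟨_, smul_mem_octadsM _ g.2 _ H11.fin_octad0_mem, hfix _ hc⟩)
  · exact Or.inr (Or.inr (Or.inl ⟨_, smul_mem_triosM _ g.2 _
      (trioSet_ten ▸ trioSet_mem (by norm_num)), hfix _ hc⟩))
  · exact Or.inr (Or.inr (Or.inr ⟨_, smul_mem_sextetsM _ g.2 _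
      (sextSet_twentyOne ▸ sextSet_mem (by norm_num)), hfix _ hc⟩))

theorem card_stab_octad {o : Finset GolayPt} (ho : o ∈ octads) :
    Nat.card (stabilizer M24 o) = 322560 := by
  have h := H11.card_stabilizer_of_orbit o (H11.orbit_octad ho) H11.card_octads_eq
  omega

theorem card_stab_trio {T : Finset (Finset GolayPt)} (hT : T ∈ trios) :
    Nat.card (stabilizer M24 T) = 64512 := by
  have h := H11.card_stabilizer_of_orbit T (H11.orbit_trio hT) H11.card_trios
  omega

/-- Subgroups of index 759, 1771 and 253. -/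
theorem odd_index_subgroups (H : Subgroup M24) :
    (H.index = 759 → ∃ o ∈ octads, H = stabilizer M24 o) ∧
      (H.index = 1771 → ∃ S ∈ sextets, H = stabilizer M24 S) ∧ H.index ≠ 253 := by
  have hm := H.card_mul_index
  rw [H11.card_M24] at hm
  refine ⟨fun hi => ?_, fun hi => ?_, fun hi => ?_⟩ <;> rw [hi] at hm <;>
    have hc := odd_index_cases H (by rw [hi]; decide) <;>
    rcases hc with hc | ⟨o, ho, hle⟩ | ⟨T, hT, hle⟩ | ⟨S, hS, hle⟩
  · simp [hc] at hi
  · exact ⟨o, ho, Subgroup.eq_of_le_of_card_ge hle (by rw [card_stab_octad ho]; omega)⟩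
  · have := Subgroup.card_le_of_le hle
    rw [card_stab_trio hT] at this; omega
  · have := Subgroup.card_le_of_le hle
    rw [H11.card_stabilizer_sextet hS] at this; omega
  · simp [hc] at hi
  · have := Subgroup.card_dvd_of_le hle
    rw [card_stab_octad ho, show Nat.card H = 138240 by omega] at this
    norm_num at this
  · have := Subgroup.card_le_of_le hle
    rw [card_stab_trio hT] at this; omega
  · exact ⟨S, hS, Subgroup.eq_of_le_of_card_ge hle
      (by rw [H11.card_stabilizer_sextet hS]; omega)⟩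
  · simp [hc] at hi
  · have := Subgroup.card_le_of_le hle
    rw [card_stab_octad ho] at this; omega
  · have := Subgroup.card_le_of_le hle
    rw [card_stab_trio hT] at this; omega
  · have := Subgroup.card_le_of_le hle
    rw [H11.card_stabilizer_sextet hS] at this; omega

end Cfsg.Agent.H12
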