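import Cfsg.Agent.H12.Classes
import Cfsg.Prelude.Def_Spor_Mathieu

/-!
The two-point group and an element exchanging the two points.
-/

set_option autoImplicit false

namespace Cfsg.Agent.H12

open scoped Pointwise

theorem mem_M22_iff {x : Equiv.Perm GolayPt} :
    x ∈ Spor.M22 ↔ x ∈ M24 ∧ x none = none ∧ x (some 0) = some 0 := by
  simp [Spor.M22, Spor.M23, Subgroup.mem_inf, MulAction.mem_stabilizer_iff, and_assoc]

theorem pair_cases {g : Equiv.Perm GolayPt}
    (h : g • ({none, some 0} : Finset GolayPt) = {none, some 0}) :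
    (g none = none ∧ g (some 0) = some 0) ∨ (g none = some 0 ∧ g (some 0) = none) := by
  have hm : ∀ x ∈ ({none, some 0} : Finset GolayPt), g x ∈ ({none, some 0} : Finset GolayPt) := by
    intro x hx
    have h' : g x ∈ g • ({none, some 0} : Finset GolayPt) := Finset.smul_mem_smul_finset hx
    rwa [h] at h'
  have h1 := hm none (by simp)
  have h2 := hm (some 0) (by simp)
  simp only [Finset.mem_insert, Finset.mem_singleton] at h1 h2
  rcases h1 with h1 | h1 <;> rcases h2 with h2 | h2
  · exact absurd (g.injective (h1.trans h2.symm)) (by simp)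
  · exact Or.inl ⟨h1, h2⟩
  · exact Or.inr ⟨h1, h2⟩
  · exact absurd (g.injective (h1.trans h2.symm)) (by simp)

/-- Only the identity among the elements fixing the pair pointwise centralises the two-point
group; a swap never does. -/
theorem not_centralize_M22 {c : Equiv.Perm GolayPt} (hc : c ∈ M24) (h₁ : c none = some 0)
    (h₂ : c (some 0) = none) : ∃ x ∈ Spor.M22, c * x ≠ x * c := by
  have hne : c ≠ 1 := fun e => by rw [e] at h₁; simp at h₁
  obtain ⟨a, ha, hca⟩ := exists_moved_off hc hne {none, some 0}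
    (le_trans Finset.card_le_two (by norm_num))
  simp only [Finset.mem_insert, Finset.mem_singleton, not_or] at ha
  have hb1 : c a ≠ none := fun e => ha.2 (c.injective (e.trans h₂.symm))
  have hb2 : c a ≠ some 0 := fun e => ha.1 (c.injective (e.trans h₁.symm))
  obtain ⟨e, -, he⟩ := Finset.exists_mem_notMem_of_card_lt_card
    (s := ({none, some 0, a, c a} : Finset GolayPt)) (t := Finset.univ) (by
      refine lt_of_le_of_lt Finset.card_le_four ?_
      rw [Finset.card_univ, Fintype.card_option, ZMod.card]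
      norm_num)
  simp only [Finset.mem_insert, Finset.mem_singleton, not_or] at he
  obtain ⟨k, hk, k0, k1, k2, k3, k4⟩ := exists_five (a := (none : GolayPt)) (b := some 0) (c := a)
    (d := c a) (e := e)
    (by simp [Ne.symm ha.1, Ne.symm ha.2, hb1.symm, hb2.symm, Ne.symm he.1, Ne.symm he.2.1,
      hca.symm, Ne.symm he.2.2.1, Ne.symm he.2.2.2])
  obtain ⟨l, hl, l0, l1, l2, l3, l4⟩ := exists_five (a := (none : GolayPt)) (b := some 0) (c := a)
    (d := e) (e := c a)
    (by simp [Ne.symm ha.1, Ne.symm ha.2, hb1.symm, hb2.symm, Ne.symm he.1, Ne.symm he.2.1,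
      hca.symm, Ne.symm he.2.2.1, he.2.2.2])
  have hmap : ∀ p q, k p = q → k⁻¹ q = p := fun p q h => by
    rw [Equiv.Perm.inv_eq_iff_eq, h]
  refine ⟨l * k⁻¹, mem_M22_iff.mpr ⟨M24.mul_mem hl (M24.inv_mem hk), ?_, ?_⟩, ?_⟩
  · rw [Equiv.Perm.mul_apply, hmap _ _ k0, l0]
  · rw [Equiv.Perm.mul_apply, hmap _ _ k1, l1]
  · intro h
    have := DFunLike.congr_fun h a
    simp only [Equiv.Perm.mul_apply] at this
    rw [hmap _ _ k2, l2, hmap _ _ k3, l3] at this
    exact he.2.2.2 this.symm

end Cfsg.Agent.H12
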