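import Cfsg.Agent.H13.Bridge
import Cfsg.Agent.H11.M24Chain
import Cfsg.Agent.H12.Kernel
import Cfsg.Agent.H12.DuadIndex
import Cfsg.Agent.H12.PslData

/-!
The subgroups of order 6072 and 253 of `M24` generated by fractional linear maps and their
maximality, by counting Sylow subgroups for the primes 23 and 11.
-/

set_option autoImplicit false

namespace Cfsg.Agent.H12

open MulAction
open scoped Pointwise

local instance fact_prime23 : Fact (Nat.Prime 23) := ⟨by norm_num⟩

theorem fixesCode_code {g : Equiv.Perm GolayPt} (hg : g ∈ M24) : fixesCode (code g) = true := by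
  have hgen : ∀ b ∈ genMasks, b < 2 ^ 24 ∧ isCode b = true := by decide +kernel
  rw [fixesCode, Bool.and_eq_true, List.all_eq_true]
  refine ⟨isPerm_code g, fun b hb => ?_⟩
  obtain ⟨hlt, hc⟩ := hgen b hb
  have hs : fin b ∈ supports (golayCode : Set (GolayPt → ZMod 2)) :=
    (fin_mem_supports hlt).mpr hc
  have h := Set.smul_mem_smul_set (a := g) hs
  rw [show g • supports (golayCode : Set (GolayPt → ZMod 2)) =
      supports (golayCode : Set (GolayPt → ZMod 2)) from mem_stabilizer_iff.mp hg] at h
  rw [← fin_mem_supports (imgMask_lt (isPerm_code g) b), ← smul_fin (isPerm_code g), permOf_code]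
  exact h

/-- The group of order 253. -/
noncomputable def frob : Subgroup (Equiv.Perm GolayPt) := H13.grp frobGens

/-- The group of order 6072. -/
noncomputable def psl23 : Subgroup (Equiv.Perm GolayPt) := H13.grp psl23Gens

theorem frob_valid : frobGens.all (H13.validB 24) = true := by decide +kernel

theorem psl23_valid : psl23Gens.all (H13.validB 24) = true := by decide +kernel

theorem frob_check : H13.check 24 frobLevels frobGens = true := by decide +kernel

theorem psl23_check : H13.check 24 psl23Levels psl23Gens = true := by decide +kernel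

theorem card_frob : Nat.card frob = 253 := by
  rw [frob, H13.card_grp frobLevels frob_valid frob_check]
  decide +kernel

theorem card_psl23 : Nat.card psl23 = 6072 := by
  rw [psl23, H13.card_grp psl23Levels psl23_valid psl23_check]
  decide +kernel

/-- Membership test by sifting. -/
def inChain (L : List H13.Level) (S : List H13.PL) (c : ℕ) : Bool :=
  isPerm c && H13.sift 24 (H13.chain 24 L S) ((List.range 24).map (app c))

theorem permOf_mem_chain {L : List H13.Level} {S : List H13.PL}
    (hS : S.all (H13.validB 24) = true) (hc : H13.check 24 L S = true) {c : ℕ}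
    (h : inChain L S c = true) : isPerm c = true ∧ permOf c ∈ H13.grp S := by
  rw [inChain, Bool.and_eq_true] at h
  refine ⟨h.1, H13.mem_grp_of_sift L hS hc _ ?_⟩
  have e : H13.img (H13.toFin (permOf c)) = (List.range 24).map (app c) := by
    refine List.ext_getElem (by simp [H13.img]) fun i h1 h2 => ?_
    have hi : i < 24 := by simpa using h2
    simp only [H13.img, List.getElem_ofFn, List.getElem_map, List.getElem_range, H13.toFin_apply]
    rw [permOf_pt h.1 hi, idx_pt (app_lt h.1 hi)]
  rw [e]
  exact h.2

theorem frob_le : frob ≤ M24 ⊓ stabilizer (Equiv.Perm GolayPt) (none : GolayPt) :=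
  le_inf (H13.grp_le_M24 frob_valid (by decide +kernel))
    (show frob ≤ stabilizer (Equiv.Perm GolayPt) (pt 23) from
      H13.grp_le_stabilizer_pt frob_valid (by norm_num) (by decide +kernel))

theorem psl23_le : psl23 ≤ M24 := H13.grp_le_M24 psl23_valid (by decide +kernel)

theorem frob_le_psl23 : frob ≤ psl23 :=
  H13.grp_le_grp psl23Levels psl23_valid frob_valid psl23_check (by decide +kernel)

/-! ### The generators of the statement -/

/-- The packed multiplication by `a * a`. -/
def sqMul (a : ℕ) : ℕ := pack (((List.range 23).map fun i => a * a * i % 23) ++ [23])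

theorem sqMul_apply : ∀ a : ZMod 23, a ≠ 0 → ∀ p : GolayPt,
    permFun (sqMul a.val) p = p.map fun x => a * a * x := by decide +kernel

theorem sqMul_check : ∀ a < 23, a ≠ 0 →
    inChain frobLevels frobGens (sqMul a) = true := by decide +kernel

/-- The translation. -/
abbrev shiftPerm : Equiv.Perm GolayPt := Equiv.optionCongr (Equiv.addRight (1 : ZMod 23))

/-- The multiplications by squares. -/
abbrev squareMuls : Set (Equiv.Perm GolayPt) :=
  {g | ∃ u : (ZMod 23)ˣ, IsSquare u ∧ g = Equiv.optionCongr (Units.mulLeft u)}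

theorem squareMuls_subset : squareMuls ⊆ frob := by
  rintro g ⟨u, ⟨v, rfl⟩, rfl⟩
  have hv : (v : ZMod 23) ≠ 0 := v.ne_zero
  have hval : (v : ZMod 23).val ≠ 0 := fun h => hv ((ZMod.val_eq_zero _).mp h)
  obtain ⟨hp, hm⟩ := permOf_mem_chain frob_valid frob_check
    (sqMul_check _ (ZMod.val_lt _) hval)
  have e : (Equiv.optionCongr (Units.mulLeft (v * v)) : Equiv.Perm GolayPt) =
      permOf (sqMul (v : ZMod 23).val) := by
    refine Equiv.ext fun p => ?_
    have h := sqMul_apply _ hv p
    rw [permOf_apply hp]
    refine Eq.trans ?_ h.symm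
    cases p <;> simp
  exact e ▸ hm

theorem shift_code : shiftPerm = permOf (H11.genPerms.getD 0 0) := H11.permOf_shift.symm

theorem shift_mem_frob : shiftPerm ∈ frob := by
  rw [shift_code]
  exact (permOf_mem_chain frob_valid frob_check (by decide +kernel)).2

theorem projInv_mem_psl23 : projInv ∈ psl23 := by
  rw [← H11.permOf_projInv]
  exact (permOf_mem_chain psl23_valid psl23_check (by decide +kernel)).2

/-- Multiplication by two. -/
def mulTwo : Equiv.Perm GolayPt :=
  Equiv.optionCongr (Units.mulLeft (⟨2, 12, by decide, by decide⟩ : (ZMod 23)ˣ))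

theorem mulTwo_mem : mulTwo ∈ squareMuls :=
  ⟨_, ⟨(⟨5, 14, by decide, by decide⟩ : (ZMod 23)ˣ), Units.ext (by decide)⟩, rfl⟩

theorem mulTwo_code : mulTwo = permOf (pack ((frobGens.getD 1 ([], [])).1)) := by
  refine Equiv.ext fun p => ?_
  rw [permOf_apply (by decide +kernel)]
  revert p
  decide +kernel

theorem gen_perm_eq {a : H13.PL} {g : Equiv.Perm GolayPt} (hg : H13.img (H13.toFin g) = a.1) :
    g = permOf (pack a.1) := by
  rw [← hg, (H13.permOf_pack_img _).2, H13.toFin.symm_apply_apply]

theorem closure_frob :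
    Subgroup.closure ({shiftPerm} ∪ squareMuls) = frob := by
  apply le_antisymm
  · rw [Subgroup.closure_le, Set.union_subset_iff, Set.singleton_subset_iff]
    exact ⟨shift_mem_frob, squareMuls_subset⟩
  · refine H13.grp_le frob_valid fun a ha g hg => ?_
    rw [gen_perm_eq hg]
    have hall : ∀ a ∈ frobGens,
        pack a.1 = H11.genPerms.getD 0 0 ∨ a = frobGens.getD 1 ([], []) := by decide +kernel
    rcases hall a ha with e | e
    · rw [e, ← shift_code]
      exact Subgroup.subset_closure (Or.inl rfl)
    · rw [e, ← mulTwo_code]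
      exact Subgroup.subset_closure (Or.inr mulTwo_mem)

theorem closure_psl23 :
    Subgroup.closure ({shiftPerm, projInv} ∪ squareMuls) = psl23 := by
  apply le_antisymm
  · rw [Subgroup.closure_le, Set.union_subset_iff, Set.insert_subset_iff, Set.singleton_subset_iff]
    exact ⟨⟨frob_le_psl23 shift_mem_frob, projInv_mem_psl23⟩,
      squareMuls_subset.trans frob_le_psl23⟩
  · refine H13.grp_le psl23_valid fun a ha g hg => ?_
    rw [gen_perm_eq hg]
    have hall : ∀ a ∈ psl23Gens, pack a.1 = H11.genPerms.getD 0 0 ∨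
        pack a.1 = H11.genPerms.getD 1 0 ∨ a = frobGens.getD 1 ([], []) := by decide +kernel
    rcases hall a ha with e | e | e
    · rw [e, ← shift_code]
      exact Subgroup.subset_closure (Or.inl (Or.inl rfl))
    · rw [e, H11.permOf_projInv]
      exact Subgroup.subset_closure (Or.inl (Or.inr rfl))
    · rw [e, ← mulTwo_code]
      exact Subgroup.subset_closure (Or.inr mulTwo_mem)

/-! ### Sylow counting -/

/-- The elements conjugating `g` into its cyclic group. -/
def cycNormalizer {G : Type*} [Group G] [Finite G] (g : G) : Subgroup G :=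
  Subgroup.normalizer ((Subgroup.zpowers g : Subgroup G) : Set G)

theorem mem_cycNormalizer {G : Type*} [Group G] [Finite G] {g c : G} :
    c ∈ cycNormalizer g ↔ c * g * c⁻¹ ∈ Subgroup.zpowers g := by
  refine ⟨fun h => (Subgroup.mem_normalizer_iff.mp h g).mp (Subgroup.mem_zpowers g), fun h => ?_⟩
  rw [cycNormalizer, Subgroup.mem_normalizer_iff_map_conj_eq, MonoidHom.map_zpowers]
  refine Subgroup.eq_of_le_of_card_ge (Subgroup.zpowers_le.mpr h) ?_
  rw [Nat.card_zpowers, Nat.card_zpowers]
  exact (orderOf_injective _ (MulAut.conj c).injective g).ge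

/-- Sylow's congruence through the normaliser of an element of prime order. -/
theorem sylow_count {G : Type*} [Group G] [Finite G] {p : ℕ} [Fact p.Prime]
    (g : G) (hg : orderOf g = p) (hp : ¬ p ^ 2 ∣ Nat.card G) :
    ∃ n, Nat.card G = n * Nat.card (cycNormalizer g) ∧ n % p = 1 := by
  have hfac : (Nat.card G).factorization p = 1 := by
    have h1 : 1 ≤ (Nat.card G).factorization p :=
      (Nat.Prime.pow_dvd_iff_le_factorization Fact.out Nat.card_pos.ne').mp
        (by rw [pow_one, ← hg]; exact orderOf_dvd_natCard g)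
    have h2 : ¬ 2 ≤ (Nat.card G).factorization p := fun h =>
      hp ((Nat.Prime.pow_dvd_iff_le_factorization Fact.out Nat.card_pos.ne').mpr h)
    omega
  let P : Sylow p G := Sylow.ofCard (Subgroup.zpowers g) (by rw [Nat.card_zpowers, hg, hfac, pow_one])
  refine ⟨Nat.card (Sylow p G), ?_, ?_⟩
  · rw [P.card_eq_index_normalizer, mul_comm]
    exact (Subgroup.card_mul_index (cycNormalizer g)).symm
  · have h := card_sylow_modEq_one p G
    rw [Nat.ModEq, Nat.one_mod_eq_one.mpr (Fact.out : p.Prime).ne_one] at h
    exact h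

theorem card_cycNormalizer_subgroup {G : Type*} [Group G] [Finite G] (L : Subgroup G)
    (g : L) : Nat.card (cycNormalizer g) = Nat.card ↥(L ⊓ cycNormalizer (g : G)) := by
  have h : (cycNormalizer g).map L.subtype = L ⊓ cycNormalizer (g : G) := by
    ext c
    rw [Subgroup.mem_inf, mem_cycNormalizer, Subgroup.mem_map]
    constructor
    · rintro ⟨d, hd, rfl⟩
      refine ⟨d.2, ?_⟩
      have h2 := Subgroup.mem_map_of_mem L.subtype (mem_cycNormalizer.mp hd)
      rwa [MonoidHom.map_zpowers] at h2
    · rintro ⟨hc, hn⟩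
      refine ⟨⟨c, hc⟩, mem_cycNormalizer.mpr ?_, rfl⟩
      obtain ⟨k, hk⟩ := hn
      exact ⟨k, Subtype.ext (by simpa using hk)⟩
  rw [← h, Subgroup.card_map_of_injective L.subtype_injective]

theorem mem_zpowers_lt {G : Type*} [Group G] [Finite G] {g y : G}
    (h : y ∈ Subgroup.zpowers g) : ∃ j < orderOf g, g ^ j = y := by
  classical
  rw [← mem_powers_iff_mem_zpowers,
    (isOfFinOrder_of_finite g).mem_powers_iff_mem_range_orderOf] at h
  simp only [Finset.mem_image, Finset.mem_range] at h
  exact h

/-! ### The normaliser of the translations -/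

theorem shift_pow (j : ℕ) : ∀ x : ZMod 23,
    (shiftPerm ^ j) (some x : GolayPt) = some (x + (j : ZMod 23)) := by
  induction j with
  | zero => simp
  | succ j ih =>
    intro x
    rw [pow_succ', Equiv.Perm.mul_apply, ih]
    simp [add_assoc]

theorem shift_pow_none (j : ℕ) : (shiftPerm ^ j) (none : GolayPt) = none := by
  induction j with
  | zero => simp
  | succ j ih => rw [pow_succ', Equiv.Perm.mul_apply, ih]; rfl

theorem orderOf_shift : orderOf shiftPerm = 23 := by
  refine orderOf_eq_prime ?_ ?_
  · refine Equiv.ext fun p => ?_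
    rcases p with - | x
    · exact shift_pow_none 23
    · rw [shift_pow, show ((23 : ℕ) : ZMod 23) = 0 from ZMod.natCast_self 23, add_zero]
      rfl
  · intro h
    have key : shiftPerm (some 0 : GolayPt) ≠ some 0 := by decide +kernel
    exact key (DFunLike.congr_fun h (some 0 : GolayPt))

/-- The packed affine map `i ↦ b + j i`. -/
def affCode (b j : ℕ) : ℕ := pack (((List.range 23).map fun i => (b + j * i) % 23) ++ [23])

theorem affCode_check : ∀ b < 23, ∀ j < 23,
    fixesCode (affCode b j) = true → inChain frobLevels frobGens (affCode b j) = true := by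
  decide +kernel

theorem idx_some (x : ZMod 23) : idx (some x : GolayPt) = x.val := rfl

theorem norm_shift_le {c : Equiv.Perm GolayPt} (hc : c ∈ M24) (hn : c none = none)
    (hcn : c ∈ cycNormalizer shiftPerm) : c ∈ frob := by
  obtain ⟨j, hj, hje⟩ := mem_zpowers_lt (mem_cycNormalizer.mp hcn)
  rw [orderOf_shift] at hj
  have hstep : ∀ x : ZMod 23, c (some (x + 1)) = (shiftPerm ^ j) (c (some x)) := by
    intro x
    rw [hje, Equiv.Perm.mul_apply, Equiv.Perm.mul_apply, Equiv.Perm.coe_inv,
      Equiv.symm_apply_apply]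
    rfl
  obtain ⟨b, hb⟩ : ∃ b : ZMod 23, c (some 0) = some b := by
    rcases h : c (some 0) with - | b
    · exact absurd (c.injective (h.trans hn.symm)) (by simp)
    · exact ⟨b, rfl⟩
  have hall : ∀ i : ℕ, c (some (i : ZMod 23)) = some (b + (j : ZMod 23) * (i : ZMod 23)) := by
    intro i
    induction i with
    | zero => simpa using hb
    | succ i ih =>
      rw [Nat.cast_succ, hstep, ih, shift_pow]
      congr 1
      ring
  have hcode : code c = affCode b.val j := by
    rw [code, affCode, show List.range 24 = List.range 23 ++ [23] by decide, List.map_append,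
      List.map_cons, List.map_nil]
    congr 1
    congr 1
    · refine List.map_congr_left fun i hi => ?_
      rw [List.mem_range] at hi
      rw [show pt i = some (i : ZMod 23) from if_pos hi, hall i, idx_some,
        ← ZMod.val_natCast, Nat.cast_add, Nat.cast_mul, ZMod.natCast_zmod_val]
    · rw [show pt 23 = (none : GolayPt) from rfl, hn]
      rfl
  have h := affCode_check b.val (ZMod.val_lt b) j hj (by rw [← hcode]; exact fixesCode_code hc)
  rw [← hcode] at h
  have := (permOf_mem_chain frob_valid frob_check h).2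
  rwa [permOf_code] at this

theorem frob_normalizes : frob ≤ cycNormalizer shiftPerm := by
  refine H13.grp_le frob_valid fun a ha g hg => ?_
  rw [gen_perm_eq hg]
  have hall : ∀ a ∈ frobGens,
      pack a.1 = H11.genPerms.getD 0 0 ∨ a = frobGens.getD 1 ([], []) := by decide +kernel
  rcases hall a ha with e | e <;> rw [e, mem_cycNormalizer]
  · rw [← shift_code, mul_inv_cancel_right]
    exact Subgroup.mem_zpowers _
  · rw [← mulTwo_code]
    have he : mulTwo * shiftPerm * mulTwo⁻¹ = shiftPerm ^ 2 := by
      rw [mul_inv_eq_iff_eq_mul]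
      refine Equiv.ext fun p => ?_
      rcases p with - | x
      · rfl
      · simp [mulTwo, pow_two, mul_add, add_assoc, one_add_one_eq_two]
    rw [he]
    exact Subgroup.pow_mem _ (Subgroup.mem_zpowers _) 2

/-! ### The normaliser of the group of order eleven -/

/-- The packed candidate normalising multiplication by two: `j` is the exponent, `a`, `b` the
images of 1 and 5. -/
def normCand (j a b : ℕ) : ℕ :=
  pack (((List.range 23).map fun i =>
    if i = 0 then 0 else
      2 ^ (j * (logTwo.getD i 0 % 16) % 11) * (if 16 ≤ logTwo.getD i 0 then b else a) % 23) ++ [23])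

/-- The candidates preserving the code. -/
def normList : List ℕ :=
  ((List.range 11).flatMap fun j => ((List.range 23).tail.flatMap fun a =>
    (List.range 23).tail.map fun b => normCand j a b)).filter fixesCode

theorem normList_length : normList.length = 55 := by decide +kernel

theorem logTwo_spec : ∀ i < 23, i ≠ 0 → (logTwo.getD i 0 % 16) < 11 ∧
    (i : ZMod 23) = 2 ^ (logTwo.getD i 0 % 16) * (if 16 ≤ logTwo.getD i 0 then 5 else 1) := by
  decide +kernel

theorem mulTwo_some (x : ZMod 23) : mulTwo (some x) = (some (2 * x) : GolayPt) := by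
  simp [mulTwo]

theorem mulTwo_pow (j : ℕ) : ∀ x : ZMod 23, (mulTwo ^ j) (some x : GolayPt) = some (2 ^ j * x) := by
  induction j with
  | zero => simp
  | succ j ih =>
    intro x
    rw [pow_succ', Equiv.Perm.mul_apply, ih, mulTwo_some, ← mul_assoc, pow_succ']

theorem orderOf_mulTwo : orderOf mulTwo = 11 := by
  haveI : Fact (Nat.Prime 11) := ⟨by norm_num⟩
  refine orderOf_eq_prime ?_ ?_
  · refine Equiv.ext fun p => ?_
    rcases p with - | x
    · have hn : ∀ n : ℕ, (mulTwo ^ n) (none : GolayPt) = none := by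
        intro n
        induction n with
        | zero => rfl
        | succ n ih => rw [pow_succ', Equiv.Perm.mul_apply, ih]; rfl
      exact hn 11
    · rw [mulTwo_pow, show (2 : ZMod 23) ^ 11 = 1 by decide, one_mul]
      rfl
  · intro h
    have key : mulTwo (some 1 : GolayPt) ≠ some 1 := by decide +kernel
    exact key (DFunLike.congr_fun h (some 1 : GolayPt))

theorem two_pow_mod (n : ℕ) : (2 : ZMod 23) ^ n = 2 ^ (n % 11) := by
  conv_lhs => rw [← Nat.div_add_mod n 11, pow_add, pow_mul]
  rw [show (2 : ZMod 23) ^ 11 = 1 by decide, one_pow, one_mul]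

theorem norm_mulTwo_code {c : Equiv.Perm GolayPt} (hc : c ∈ M24) (hn : c none = none)
    (h0 : c (some 0) = some 0) (hcn : c ∈ cycNormalizer mulTwo) : code c ∈ normList := by
  obtain ⟨j, hj, hje⟩ := mem_zpowers_lt (mem_cycNormalizer.mp hcn)
  rw [orderOf_mulTwo] at hj
  have hstep : ∀ x : ZMod 23, c (some (2 * x)) = (mulTwo ^ j) (c (some x)) := by
    intro x
    rw [hje, Equiv.Perm.mul_apply, Equiv.Perm.mul_apply, Equiv.Perm.coe_inv,
      Equiv.symm_apply_apply, mulTwo_some]
  have hnz : ∀ x : ZMod 23, x ≠ 0 → ∃ a : ZMod 23, a ≠ 0 ∧ c (some x) = some a := by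
    intro x hx
    rcases h : c (some x) with - | a
    · exact absurd (c.injective (h.trans hn.symm)) (by simp)
    · refine ⟨a, fun ha => hx ?_, rfl⟩
      rw [ha] at h
      exact Option.some.inj (c.injective (h.trans h0.symm))
  obtain ⟨a, ha, hca⟩ := hnz 1 (by decide)
  obtain ⟨b, hb, hcb⟩ := hnz 5 (by decide)
  have hall : ∀ (k : ℕ) (x : ZMod 23) (y : ZMod 23), c (some x) = some y →
      c (some (2 ^ k * x)) = some (2 ^ (j * k) * y) := by
    intro k
    induction k with
    | zero => intro x y h; simpa using h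
    | succ k ih =>
      intro x y h
      rw [pow_succ', mul_assoc, hstep, ih x y h, mulTwo_pow, ← mul_assoc, ← pow_add]
      congr 2
      ring
  have hcode : code c = normCand j a.val b.val := by
    rw [code, normCand, show List.range 24 = List.range 23 ++ [23] by decide, List.map_append,
      List.map_cons, List.map_nil]
    congr 1
    congr 1
    · refine List.map_congr_left fun i hi => ?_
      rw [List.mem_range] at hi
      rw [show pt i = some (i : ZMod 23) from if_pos hi]
      by_cases hi0 : i = 0
      · subst hi0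
        rw [Nat.cast_zero, h0]
        rfl
      · obtain ⟨hk, he⟩ := logTwo_spec i hi hi0
        have hv : c (some (if 16 ≤ logTwo.getD i 0 then (5 : ZMod 23) else 1)) =
            some (if 16 ≤ logTwo.getD i 0 then b else a) := by
          split <;> assumption
        rw [if_neg hi0, he, hall _ _ _ hv, idx_some, ← ZMod.val_natCast (n := 23), Nat.cast_mul,
          Nat.cast_pow, Nat.cast_ofNat, ← two_pow_mod]
        split <;> rw [ZMod.natCast_zmod_val]
    · rw [show pt 23 = (none : GolayPt) from rfl, hn]
      rfl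
  rw [normList, List.mem_filter]
  refine ⟨?_, fixesCode_code hc⟩
  rw [hcode]
  have hval : ∀ x : ZMod 23, x ≠ 0 → x.val ∈ (List.range 23).tail := by decide +kernel
  exact List.mem_flatMap.mpr ⟨j, List.mem_range.mpr hj, List.mem_flatMap.mpr
    ⟨a.val, hval a ha, List.mem_map.mpr ⟨b.val, hval b hb, rfl⟩⟩⟩

/-- The normaliser of the group of order eleven inside a two-point stabiliser. -/
noncomputable def normEleven : Subgroup (Equiv.Perm GolayPt) :=
  M24 ⊓ stabilizer (Equiv.Perm GolayPt) (none : GolayPt) ⊓
    stabilizer (Equiv.Perm GolayPt) (some 0 : GolayPt) ⊓ cycNormalizer mulTwo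

theorem normFive_check : (fixesCode normFive && Nat.beq (app normFive 23) 23 &&
    Nat.beq (app normFive 0) 0 &&
    Nat.beq (pmul normFive (pmul normFive (pmul normFive (pmul normFive normFive)))) pone &&
    !(Nat.beq (app normFive 2) 2)) = true ∧
    ∃ j < 11, ∀ i < 24, app normFive (app (pack ((frobGens.getD 1 ([], [])).1)) i) =
      Nat.rec (app normFive i) (fun _ r => app (pack ((frobGens.getD 1 ([], [])).1)) r) j := by
  decide +kernel

attribute [local irreducible] normList code

theorem card_le_length_of_code (H : Subgroup (Equiv.Perm GolayPt)) (Lst : List ℕ)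
    (h : ∀ c ∈ H, code c ∈ Lst) : Nat.card H ≤ Lst.length := by
  classical
  let f : H → {x // x ∈ Lst.toFinset} := fun c => ⟨code c.1, List.mem_toFinset.mpr (h c.1 c.2)⟩
  have hinj : Function.Injective f := fun a b hab => Subtype.ext <| by
    have h' : code a.1 = code b.1 := congrArg Subtype.val hab
    rw [← permOf_code a.1, ← permOf_code b.1, h']
  refine (Nat.card_le_card_of_injective f hinj).trans ?_
  rw [Nat.card_eq_fintype_card, Fintype.card_coe]
  exact List.toFinset_card_le _

theorem card_normEleven : Nat.card normEleven = 55 := by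
  classical
  have hle : Nat.card normEleven ≤ 55 :=
    (card_le_length_of_code normEleven normList fun c hc =>
      norm_mulTwo_code hc.1.1.1 hc.1.1.2 hc.1.2 hc.2).trans normList_length.le
  obtain ⟨h, jj, hjj, hpow⟩ := normFive_check
  simp only [Bool.and_eq_true, Nat.beq_eq, Bool.not_eq_true', ← Bool.not_eq_true] at h
  obtain ⟨⟨⟨⟨hf, h23⟩, h00⟩, h5⟩, hne⟩ := h
  have hp : isPerm normFive = true := by
    rw [fixesCode, Bool.and_eq_true] at hf
    exact hf.1
  have hm2 : isPerm (pack ((frobGens.getD 1 ([], [])).1)) = true := by decide +kernel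
  have hrec : ∀ (k i : ℕ), i < 24 → app normFive i < 24 →
      (mulTwo ^ k) (pt (app normFive i)) =
        pt (Nat.rec (app normFive i) (fun _ r => app (pack ((frobGens.getD 1 ([], [])).1)) r) k) ∧
      Nat.rec (motive := fun _ => ℕ) (app normFive i)
        (fun _ r => app (pack ((frobGens.getD 1 ([], [])).1)) r) k < 24 := by
    intro k i _ hlt
    induction k with
    | zero => exact ⟨rfl, hlt⟩
    | succ k ih =>
      refine ⟨?_, app_lt hm2 ih.2⟩
      rw [pow_succ', Equiv.Perm.mul_apply, ih.1, mulTwo_code, permOf_pt hm2 ih.2]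
  have hmem : permOf normFive ∈ normEleven := by
    refine ⟨⟨⟨permOf_mem_M24 hf, ?_⟩, ?_⟩, ?_⟩
    · show permOf normFive (pt 23) = pt 23
      rw [permOf_pt hp (by norm_num), h23]
    · show permOf normFive (pt 0) = pt 0
      rw [permOf_pt hp (by norm_num), h00]
    · show permOf normFive ∈ cycNormalizer mulTwo
      rw [mem_cycNormalizer, show permOf normFive * mulTwo * (permOf normFive)⁻¹ = mulTwo ^ jj by
        rw [mul_inv_eq_iff_eq_mul]
        refine Equiv.ext (forall_pt.2 fun i hi => ?_)
        rw [Equiv.Perm.mul_apply, Equiv.Perm.mul_apply, permOf_pt hp hi,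
          (hrec jj i hi (app_lt hp hi)).1, mulTwo_code, permOf_pt hm2 hi,
          permOf_pt hp (app_lt hm2 hi), hpow i hi]]
      exact Subgroup.pow_mem _ (Subgroup.mem_zpowers _) jj
  have hmu : mulTwo ∈ normEleven := by
    obtain ⟨h1, h2⟩ := frob_le (squareMuls_subset mulTwo_mem)
    refine ⟨⟨⟨h1, h2⟩, ?_⟩, mem_cycNormalizer.mpr ?_⟩
    · show mulTwo (some 0) = some 0
      rw [mulTwo_some, mul_zero]
    · rw [mul_inv_cancel_right]
      exact Subgroup.mem_zpowers _
  haveI : Fact (Nat.Prime 5) := ⟨by norm_num⟩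
  have ho5 : orderOf (permOf normFive) = 5 := by
    refine orderOf_eq_prime ?_ ?_
    · have e2 := pmul_spec hp hp
      have e3 := pmul_spec hp e2.1
      have e4 := pmul_spec hp e3.1
      have e5 := pmul_spec hp e4.1
      rw [← pone_spec.2, ← h5, e5.2, e4.2, e3.2, e2.2]
      simp only [pow_succ', pow_zero, mul_one]
    · intro e
      have f : ∀ i < 24, app normFive i = i := by
        intro i hi
        rw [← permOf_fixed_iff hp hi, e, Equiv.Perm.one_apply]
      exact hne (f 2 (by norm_num))
  have d5 : 5 ∣ Nat.card normEleven := by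
    have ho : orderOf (⟨_, hmem⟩ : normEleven) = 5 := (Subgroup.orderOf_coe _).symm.trans ho5
    rw [← ho]
    exact orderOf_dvd_natCard _
  have d11 : 11 ∣ Nat.card normEleven := by
    have ho : orderOf (⟨_, hmu⟩ : normEleven) = 11 := (Subgroup.orderOf_coe _).symm.trans orderOf_mulTwo
    rw [← ho]
    exact orderOf_dvd_natCard _
  have : 55 ∣ Nat.card normEleven :=
    Nat.Coprime.mul_dvd_of_dvd_of_dvd (by norm_num : Nat.Coprime 5 11) d5 d11
  exact le_antisymm hle (Nat.le_of_dvd Nat.card_pos this)

/-! ### Overgroups -/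

theorem mult_candidates : (allBelow 11 1754 fun t => forceNat (23 * t + 1) fun m =>
    !(Nat.beq (40320 % m) 0) || Nat.beq m 1 || Nat.beq m 40320 ||
      (!(Nat.beq (m % 11) 1) && (!(Nat.beq (m % 5) 0) || !(Nat.beq (m / 5 % 11) 1)))) = true := by
  decide +kernel

/-- The group of order 253 is maximal in the stabiliser of a point. -/
theorem over_frob {L : Subgroup (Equiv.Perm GolayPt)}
    (hL : L ≤ M24 ⊓ stabilizer (Equiv.Perm GolayPt) (none : GolayPt)) (hN : frob ≤ L) :
    L = frob ∨ L = M24 ⊓ stabilizer (Equiv.Perm GolayPt) (none : GolayPt) := by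
  classical
  have hM : Nat.card ↥(M24 ⊓ stabilizer (Equiv.Perm GolayPt) (none : GolayPt)) = 10200960 := by
    rw [← H11.card_stabilizer_eq_card_inf, card_stab_point]
  have hdvd : Nat.card L ∣ 10200960 := hM ▸ Subgroup.card_dvd_of_le hL
  obtain ⟨m, hm⟩ : 253 ∣ Nat.card L := card_frob ▸ Subgroup.card_dvd_of_le hN
  have hm' : m ∣ 40320 := by
    rw [hm, show (10200960 : ℕ) = 253 * 40320 by norm_num] at hdvd
    exact Nat.dvd_of_mul_dvd_mul_left (by norm_num) hdvd
  haveI : Fact (Nat.Prime 23) := ⟨by norm_num⟩
  haveI : Fact (Nat.Prime 11) := ⟨by norm_num⟩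
  have hσ : shiftPerm ∈ L := hN shift_mem_frob
  obtain ⟨n23, h23, h23'⟩ := sylow_count (⟨_, hσ⟩ : L) ((Subgroup.orderOf_coe _).symm.trans orderOf_shift)
    (fun h => by have := h.trans hdvd; norm_num at this)
  have hN23 : L ⊓ cycNormalizer shiftPerm = frob := le_antisymm
    (fun c hc => norm_shift_le (hL hc.1).1 (hL hc.1).2 hc.2) (le_inf hN frob_normalizes)
  rw [card_cycNormalizer_subgroup, hN23, card_frob, hm] at h23
  have e23 : n23 = m := by linarith [h23]
  rw [e23] at h23'
  -- the stabiliser of a second point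
  set L0 := L ⊓ stabilizer (Equiv.Perm GolayPt) (some 0 : GolayPt) with hL0
  have horb : (MulAction.orbit L (some 0 : GolayPt)).ncard = 23 := by
    have : MulAction.orbit L (some 0 : GolayPt) = Set.range (some : ZMod 23 → GolayPt) := by
      ext p
      constructor
      · rintro ⟨g, rfl⟩
        rcases h : (g : Equiv.Perm GolayPt) (some 0) with - | x
        · exact absurd ((g : Equiv.Perm GolayPt).injective (h.trans ((hL g.2).2 : _ = none).symm))
            (by simp)
        · exact ⟨x, h.symm⟩
      · rintro ⟨x, rfl⟩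
        refine ⟨⟨_, L.pow_mem hσ x.val⟩, ?_⟩
        show (shiftPerm ^ x.val) (some 0) = some x
        rw [shift_pow, zero_add, ZMod.natCast_zmod_val]
    rw [this, Set.ncard_range_of_injective (Option.some_injective _), Nat.card_eq_fintype_card,
      ZMod.card]
  have hL0c : 23 * Nat.card L0 = 253 * m := by
    have h := (stabilizer L (some 0 : GolayPt)).card_mul_index
    rw [index_stabilizer, horb, hm] at h
    rw [← h, mul_comm]
    congr 1
    exact Nat.card_congr
      { toFun := fun g => ⟨⟨g.1, g.2.1⟩, g.2.2⟩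
        invFun := fun g => ⟨g.1.1, g.1.2, g.2⟩
        left_inv := fun _ => rfl
        right_inv := fun _ => rfl }
  have hμ : mulTwo ∈ L0 := ⟨hN (squareMuls_subset mulTwo_mem), by
    show mulTwo (some 0) = some 0
    rw [mulTwo_some, mul_zero]⟩
  obtain ⟨n11, h11, h11'⟩ := sylow_count (⟨_, hμ⟩ : L0)
    ((Subgroup.orderOf_coe _).symm.trans orderOf_mulTwo)
    (fun h => by
      have := h.trans (Subgroup.card_dvd_of_le (inf_le_left : L0 ≤ L) |>.trans hdvd)
      norm_num at this)
  rw [card_cycNormalizer_subgroup] at h11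
  have hk : Nat.card ↥(L0 ⊓ cycNormalizer mulTwo) ∣ 55 := by
    rw [← card_normEleven]
    exact Subgroup.card_dvd_of_le
      (show L0 ⊓ cycNormalizer mulTwo ≤ normEleven from fun c hc => ⟨⟨hL hc.1.1, hc.1.2⟩, hc.2⟩)
  have hk11 : 11 ∣ Nat.card ↥(L0 ⊓ cycNormalizer mulTwo) := by
    have hmem : mulTwo ∈ L0 ⊓ cycNormalizer mulTwo :=
      ⟨hμ, mem_cycNormalizer.mpr (by rw [mul_inv_cancel_right]; exact Subgroup.mem_zpowers _)⟩
    have ho : orderOf (⟨_, hmem⟩ : ↥(L0 ⊓ cycNormalizer mulTwo)) = 11 :=
      (Subgroup.orderOf_coe _).symm.trans orderOf_mulTwo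
    rw [← ho]
    exact orderOf_dvd_natCard _
  set k := Nat.card ↥(L0 ⊓ cycNormalizer mulTwo)
  have hk2 : k = 11 ∨ k = 55 := by
    have h1 : k ≤ 55 := Nat.le_of_dvd (by norm_num) hk
    obtain ⟨d, hd⟩ := hk11
    have h2 : d ≤ 5 := by omega
    interval_cases d <;> rw [hd] at hk <;> revert hk <;> rw [hd] <;> decide
  obtain ⟨t, ht⟩ : ∃ t, m = 23 * t + 1 := ⟨m / 23, by omega⟩
  have hmle : m ≤ 40320 := Nat.le_of_dvd (by norm_num) hm'
  have hcheck := allBelow_spec mult_candidates (show t < 1754 by omega)
  simp only [forceNat_eq, ← ht, Bool.or_eq_true, Bool.and_eq_true, Bool.not_eq_true',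
    ← Bool.not_eq_true, Nat.beq_eq] at hcheck
  rcases hcheck with ((hc | hc) | hc) | hc
  · exact absurd (Nat.mod_eq_zero_of_dvd hm') hc
  · exact Or.inl (Subgroup.eq_of_le_of_card_ge hN (by rw [hm, hc, card_frob])).symm
  · exact Or.inr (Subgroup.eq_of_le_of_card_ge hL (by rw [hM, hm, hc]))
  · exfalso
    rcases hk2 with e | e <;> rw [e] at h11
    · have : n11 = m := by omega
      exact hc.1 (this ▸ h11')
    · rcases hc.2 with h5 | h5
      · exact h5 (by omega)
      · exact h5 (by rw [show m / 5 = n11 by omega]; exact h11')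

/-- The group of order 6072 is maximal in `M24`. -/
theorem over_psl23 {L : Subgroup (Equiv.Perm GolayPt)} (hL : L ≤ M24) (hG : psl23 ≤ L) :
    L = psl23 ∨ L = M24 := by
  classical
  have horb : MulAction.orbit L (none : GolayPt) = Set.univ := by
    rw [Set.eq_univ_iff_forall]
    rintro (- | x)
    · exact MulAction.mem_orbit_self _
    · refine ⟨⟨shiftPerm ^ x.val * projInv, L.mul_mem
        (L.pow_mem (hG (frob_le_psl23 shift_mem_frob)) _) (hG projInv_mem_psl23)⟩, ?_⟩
      show (shiftPerm ^ x.val) (projInv none) = some x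
      rw [show projInv none = (some 0 : GolayPt) from rfl, shift_pow, zero_add,
        ZMod.natCast_zmod_val]
  have hcard : 24 * Nat.card ↥(L ⊓ stabilizer (Equiv.Perm GolayPt) (none : GolayPt)) =
      Nat.card L := by
    have h := (stabilizer L (none : GolayPt)).card_mul_index
    rw [index_stabilizer, horb, Set.ncard_univ, Nat.card_eq_fintype_card (α := GolayPt),
      show Fintype.card GolayPt = 24 from rfl] at h
    rw [← h, mul_comm]
    congr 1
    exact Nat.card_congr
      { toFun := fun g => ⟨⟨g.1, g.2.1⟩, g.2.2⟩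
        invFun := fun g => ⟨g.1.1, g.1.2, g.2⟩
        left_inv := fun _ => rfl
        right_inv := fun _ => rfl }
  have hM : Nat.card ↥(M24 ⊓ stabilizer (Equiv.Perm GolayPt) (none : GolayPt)) = 10200960 := by
    rw [← H11.card_stabilizer_eq_card_inf, card_stab_point]
  rcases over_frob (inf_le_inf hL le_rfl) (le_inf (frob_le_psl23.trans hG) (fun g hg => (frob_le hg).2))
    with h | h
  · refine Or.inl (Subgroup.eq_of_le_of_card_ge hG ?_).symm
    rw [← hcard, h, card_frob, card_psl23]
  · refine Or.inr (Subgroup.eq_of_le_of_card_ge hL ?_)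
    rw [← hcard, h, hM, H11.card_M24]

theorem isCoatom_psl23 : IsCoatom (psl23.subgroupOf M24) := by
  constructor
  · intro h
    have := congrArg (fun K : Subgroup M24 => Nat.card K) h
    simp only [Nat.card_congr (Subgroup.subgroupOfEquivOfLe psl23_le).toEquiv, card_psl23,
      Subgroup.card_top, H11.card_M24] at this
    norm_num at this
  · intro b hb
    have h1 : psl23 ≤ b.map M24.subtype := fun g hg => ⟨⟨g, psl23_le hg⟩, hb.le hg, rfl⟩
    rcases over_psl23 (Subgroup.map_subtype_le b) h1 with h | h
    · refine absurd ?_ hb.ne'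
      ext g
      rw [Subgroup.mem_subgroupOf, ← h]
      exact ⟨fun hg => ⟨g, hg, rfl⟩, fun ⟨y, hy, he⟩ => Subtype.ext he ▸ hy⟩
    · rw [eq_top_iff]
      intro g _
      obtain ⟨y, hy, he⟩ : (g : Equiv.Perm GolayPt) ∈ b.map M24.subtype := h.symm ▸ g.2
      exact Subtype.ext he ▸ hy

theorem isCoatom_frob :
    IsCoatom ((frob.subgroupOf M24).subgroupOf (stabilizer M24 (none : GolayPt))) := by
  have hle : frob.subgroupOf M24 ≤ stabilizer M24 (none : GolayPt) := fun g hg => (frob_le hg).2
  have hle24 : frob ≤ M24 := frob_le.trans inf_le_left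
  constructor
  · intro h
    have := congrArg (fun K : Subgroup (stabilizer M24 (none : GolayPt)) => Nat.card K) h
    simp only [Nat.card_congr (Subgroup.subgroupOfEquivOfLe hle).toEquiv,
      Nat.card_congr (Subgroup.subgroupOfEquivOfLe hle24).toEquiv, card_frob,
      Subgroup.card_top, card_stab_point] at this
    norm_num at this
  · intro b hb
    let B : Subgroup (Equiv.Perm GolayPt) :=
      (b.map (stabilizer M24 (none : GolayPt)).subtype).map M24.subtype
    have h1 : frob ≤ B := fun g hg =>
      ⟨⟨g, hle24 hg⟩, ⟨⟨⟨g, hle24 hg⟩, hle hg⟩, hb.le hg, rfl⟩, rfl⟩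
    have h2 : B ≤ M24 ⊓ stabilizer (Equiv.Perm GolayPt) (none : GolayPt) := by
      rintro _ ⟨x, ⟨y, -, rfl⟩, rfl⟩
      exact ⟨y.1.2, y.2⟩
    have hmem : ∀ y : stabilizer M24 (none : GolayPt), ((y : M24) : Equiv.Perm GolayPt) ∈ B →
        y ∈ b := by
      rintro y ⟨x, ⟨z, hz, rfl⟩, he⟩
      exact (Subtype.ext (Subtype.ext he) : z = y) ▸ hz
    rcases over_frob h2 h1 with h | h
    · refine absurd (le_antisymm (fun y hy => ?_) hb.le) hb.ne'
      show ((y : M24) : Equiv.Perm GolayPt) ∈ frob
      rw [← h]
      exact ⟨y.1, ⟨y, hy, rfl⟩, rfl⟩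
    · rw [eq_top_iff]
      intro y _
      exact hmem y (h.symm ▸ ⟨y.1.2, y.2⟩)

end Cfsg.Agent.H12
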