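import Cfsg.Agent.H12.Centralizers
import Cfsg.Agent.H12.SevenData

/-!
Elements of order 7 of `M24`, their centraliser and the normaliser of the subgroup they generate.
-/

set_option autoImplicit false

namespace Cfsg.Agent.H12

open scoped Pointwise

/-- The `j+1`st power of the representative of order 7. -/
noncomputable def pow7 (j : ℕ) : ℕ := chunkGet rep7Pows j

theorem pow7_check : (fixesCode (pow7 0) && allBelow 3 5 (fun j =>
    Nat.beq (pmul (pow7 0) (pow7 j)) (pow7 (Nat.add j 1))) &&
    allList pts24 (fun i => Nat.beq (app (pow7 0) (app (pow7 5) i)) i) &&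
    !(allList pts24 (fun i => Nat.beq (app (pow7 0) i) i))) = true := by
  decide +kernel

theorem pow7_spec : ∀ j < 6, (isPerm (pow7 j) = true ∧ permOf (pow7 j) ∈ M24) ∧
    permOf (pow7 j) = permOf (pow7 0) ^ (j + 1) := by
  have h := pow7_check
  simp only [Bool.and_eq_true] at h
  obtain ⟨⟨⟨hf, hp⟩, -⟩, -⟩ := h
  intro j
  induction j with
  | zero =>
    intro _
    refine ⟨⟨?_, permOf_mem_M24 hf⟩, (pow_one _).symm⟩
    rw [fixesCode, Bool.and_eq_true] at hf
    exact hf.1
  | succ j ih =>
    intro hj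
    obtain ⟨hP, he⟩ := ih (by omega)
    have h0 : isPerm (pow7 0) = true ∧ permOf (pow7 0) ∈ M24 := by
      refine ⟨?_, permOf_mem_M24 hf⟩
      rw [fixesCode, Bool.and_eq_true] at hf
      exact hf.1
    have hs := allBelow_spec hp (show j < 5 by omega)
    rw [Nat.beq_eq] at hs
    change pmul (pow7 0) (pow7 j) = pow7 (j + 1) at hs
    rw [← hs]
    refine ⟨pmul_mem h0 hP, ?_⟩
    rw [(pmul_spec h0.1 hP.1).2, he, ← pow_succ']

theorem rep7_order : orderOf (permOf (pow7 0)) = 7 := by
  haveI := Fact.mk (by norm_num : Nat.Prime 7)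
  have h := pow7_check
  simp only [Bool.and_eq_true] at h
  obtain ⟨⟨-, h7⟩, hne⟩ := h
  have h0 := (pow7_spec 0 (by norm_num)).1.1
  have h5 := (pow7_spec 5 (by norm_num)).1.1
  refine orderOf_eq_prime ?_ ?_
  · rw [pow_succ', ← (pow7_spec 5 (by norm_num)).2]
    refine Equiv.ext (forall_pt.mpr fun i hi => ?_)
    have := allList_spec h7 i (mem_pts24.mpr hi)
    rw [Nat.beq_eq] at this
    rw [Equiv.Perm.mul_apply, permOf_pt h5 hi, permOf_pt h0 (app_lt h5 hi), this]
    rfl
  · intro h1
    rw [Bool.not_eq_true', ← Bool.not_eq_true] at hne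
    apply hne
    refine allList_of_forall fun i hi => ?_
    rw [Nat.beq_eq]
    exact (permOf_fixed_iff h0 (mem_pts24.mp hi)).mp (by rw [h1]; rfl)

/-- Test for a map whose seventh iterate is trivial. -/
noncomputable def testSeven (f : ℕ → ℕ) : Bool :=
  allList pts24 fun i => Nat.beq (f (f (f (f (f (f (f i))))))) i

/-- `k` read as a five-tuple of images. -/
noncomputable def tup7 (k : ℕ) : ℕ → ℕ := chunkGet [1, 2, 3, 4, k]

theorem tup7_ok : scanOK 5 24 (fun k => Nat.ble 5 k) tup7 = true := by decide +kernel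

/-- Candidates of order 7. -/
noncomputable def sevenCands : List ℕ := scanList 24 (fun k => Nat.ble 5 k) tup7 testSeven

theorem conj7_check : (allList sevenCands (fun c => memList c (conj7Data.map Prod.fst)) &&
    conj7Data.all (conjOK (pow7 0) (pow7 5))) = true := by
  decide +kernel

/-- Every element of order 7 is conjugate to the representative or to its inverse. -/
theorem order_seven_class {g : Equiv.Perm GolayPt} (hg : g ∈ M24) (h7 : orderOf g = 7) :
    ∃ k ∈ M24, g = k * permOf (pow7 0) * k⁻¹ ∨ g = k * permOf (pow7 5) * k⁻¹ := by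
  haveI := Fact.mk (by norm_num : Nat.Prime 7)
  obtain ⟨p, hp⟩ : ∃ p, g p ≠ p := by
    by_contra h
    push Not at h
    rw [show g = 1 from Equiv.ext h, orderOf_one] at h7
    omega
  have hg7 : g ^ 7 = 1 := by rw [← h7]; exact pow_orderOf_eq_one g
  have hper : ∀ j, 0 < j → j < 7 → (g ^ j) p ≠ p := by
    intro j h0 hj he
    apply hp
    have h1 : Function.IsPeriodicPt g j p := by
      rw [Function.IsPeriodicPt, Function.IsFixedPt, ← Equiv.Perm.coe_pow]
      exact he
    have h2 : Function.IsPeriodicPt g 7 p := by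
      rw [Function.IsPeriodicPt, Function.IsFixedPt, ← Equiv.Perm.coe_pow, hg7]
      rfl
    have h3 := h1.gcd h2
    have hco : Nat.gcd j 7 = 1 :=
      Nat.Coprime.symm ((Nat.Prime.coprime_iff_not_dvd (by norm_num)).mpr
        (fun hd => by have := Nat.le_of_dvd h0 hd; omega))
    rw [hco] at h3
    exact h3
  have hinj : ∀ i j, i < j → j < 7 → (g ^ i) p ≠ (g ^ j) p := by
    intro i j hij hj he
    apply hper (j - i) (by omega) (by omega)
    have : (g ^ i) ((g ^ (j - i)) p) = (g ^ i) p := by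
      rw [← Equiv.Perm.mul_apply, ← pow_add, Nat.add_sub_cancel' hij.le, he]
    exact (g ^ i).injective this
  obtain ⟨k, hk, k0, k1, k2, k3, k4⟩ := exists_five (a := (g ^ 0) p) (b := (g ^ 1) p)
    (c := (g ^ 2) p) (d := (g ^ 3) p) (e := (g ^ 4) p)
    (by simp only [List.nodup_cons, List.mem_cons, List.not_mem_nil, or_false, not_or,
          List.nodup_nil, and_true, not_false_eq_true]
        exact ⟨⟨hinj 0 1 (by norm_num) (by norm_num), hinj 0 2 (by norm_num) (by norm_num),
            hinj 0 3 (by norm_num) (by norm_num), hinj 0 4 (by norm_num) (by norm_num)⟩,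
          ⟨hinj 1 2 (by norm_num) (by norm_num), hinj 1 3 (by norm_num) (by norm_num),
            hinj 1 4 (by norm_num) (by norm_num)⟩,
          ⟨hinj 2 3 (by norm_num) (by norm_num), hinj 2 4 (by norm_num) (by norm_num)⟩,
          hinj 3 4 (by norm_num) (by norm_num)⟩)
  set g' := k⁻¹ * g * k with hg'
  have hgmem : g' ∈ M24 := M24.mul_mem (M24.mul_mem (M24.inv_mem hk) hg) hk
  have hpt : ∀ a b, g (k a) = k b → g' a = b := by
    intro a b h
    rw [hg', Equiv.Perm.mul_apply, Equiv.Perm.mul_apply, h, Equiv.Perm.inv_eq_iff_eq]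
  have hstep : ∀ n, g ((g ^ n) p) = (g ^ (n + 1)) p := by
    intro n
    rw [pow_succ', Equiv.Perm.mul_apply]
  have i0 := hpt (pt 0) (pt 1) (by rw [k0, k1, hstep])
  have i1 := hpt (pt 1) (pt 2) (by rw [k1, k2, hstep])
  have i2 := hpt (pt 2) (pt 3) (by rw [k2, k3, hstep])
  have i3 := hpt (pt 3) (pt 4) (by rw [k3, k4, hstep])
  have hne : 5 ≤ idx (g' (pt 4)) := by
    by_contra hlt
    have hk4 : k (g' (pt 4)) = (g ^ 5) p := by
      rw [hg']
      simp only [Equiv.Perm.mul_apply, k4, hstep]
      simp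
    rw [← pt_idx (g' (pt 4))] at hk4
    rcases (show idx (g' (pt 4)) = 0 ∨ idx (g' (pt 4)) = 1 ∨ idx (g' (pt 4)) = 2 ∨
      idx (g' (pt 4)) = 3 ∨ idx (g' (pt 4)) = 4 by omega) with h | h | h | h | h <;>
      rw [h] at hk4
    · exact hinj 0 5 (by norm_num) (by norm_num) (k0 ▸ hk4)
    · exact hinj 1 5 (by norm_num) (by norm_num) (k1 ▸ hk4)
    · exact hinj 2 5 (by norm_num) (by norm_num) (k2 ▸ hk4)
    · exact hinj 3 5 (by norm_num) (by norm_num) (k3 ▸ hk4)
    · exact hinj 4 5 (by norm_num) (by norm_num) (k4 ▸ hk4)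
  have hsev : g' ^ 7 = 1 := by
    rw [hg', show k⁻¹ * g * k = k⁻¹ * g * k⁻¹⁻¹ by rw [inv_inv], conj_pow, hg7, mul_one,
      mul_inv_cancel]
  have hmem := scanList_complete (test := testSeven) tup7_ok hgmem (k := idx (g' (pt 4)))
    (idx_lt _) (Nat.ble_eq.mpr hne) ?_ ?_
  · obtain ⟨hcov, hok⟩ := Bool.and_eq_true_iff.mp conj7_check
    obtain ⟨e', he', hee⟩ := List.mem_map.mp (memList_spec (allList_spec hcov _ hmem))
    obtain ⟨j, hj, hj'⟩ := conj_of_conjOK (pow7_spec 0 (by norm_num)).1 (pow7_spec 5 (by norm_num)).1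
      (by rw [hee]; exact isPerm_code g') (List.all_eq_true.mp hok e' he')
    rw [hee, permOf_code] at hj'
    have hgk : g = k * g' * k⁻¹ := by rw [hg']; group
    refine ⟨k * j, M24.mul_mem hk hj, hj'.imp (fun h => ?_) (fun h => ?_)⟩ <;>
      rw [hgk, h] <;> group
  · intro i hi
    rcases i with - | - | - | - | - | i
    · rw [i0, idx_pt (by norm_num)]; rfl
    · rw [i1, idx_pt (by norm_num)]; rfl
    · rw [i2, idx_pt (by norm_num)]; rfl
    · rw [i3, idx_pt (by norm_num)]; rfl
    · rfl
    · omega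
  · intro f hf
    refine allList_of_forall fun i hi => ?_
    rw [mem_pts24] at hi
    have hstep' : ∀ n, f (idx ((g' ^ n) (pt i))) = idx ((g' ^ (n + 1)) (pt i)) := by
      intro n
      rw [hf _ (idx_lt _), pt_idx, pow_succ']
      exact congrArg idx (Equiv.Perm.mul_apply g' (g' ^ n) (pt i)).symm
    have e0 : idx ((g' ^ 0) (pt i)) = i := idx_pt hi
    rw [Nat.beq_eq]
    have e := hstep' 0
    rw [e0] at e
    rw [e, hstep' 1, hstep' 2, hstep' 3, hstep' 4, hstep' 5, hstep' 6, hsev]
    exact idx_pt hi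

/-! ### The normaliser -/

/-- Images of 0..4 of a candidate conjugating the representative to its `j+1`st power. -/
noncomputable def tupN (k : ℕ) : ℕ → ℕ :=
  forceNat (Nat.div k 6) fun a => forceNat (pow7 (Nat.mod k 6)) fun y =>
    chunkGet [a, app y a, app y (app y a), app y (app y (app y a)),
      app y (app y (app y (app y a)))]

/-- Admissible candidates. -/
noncomputable def validN (k : ℕ) : Bool :=
  forceNat (Nat.div k 6) fun a => forceNat (pow7 (Nat.mod k 6)) fun y => !(Nat.beq (app y a) a)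

/-- Read the candidate number off the first two images. -/
noncomputable def keyN (a b : ℕ) : ℕ :=
  Nat.add (Nat.mul 6 a) (findPerm [0, 1, 2, 3, 4, 5] fun j => Nat.beq (app (pow7 j) a) b)

theorem tupN_ok : scanOK 8 144 validN tupN = true := by decide +kernel

theorem keyN_ok : (allBelow 8 144 fun k =>
    !(validN k) || Nat.beq (keyN (tupN k 0) (tupN k 1)) k) = true := by
  decide +kernel

/-- Test for conjugating the representative into the power read off at the point 0. -/
noncomputable def testN (f : ℕ → ℕ) : Bool :=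
  forceNat (Nat.mod (keyN (f 0) (f 1)) 6) fun j =>
    allList pts24 fun i => Nat.beq (f (app (pow7 0) i)) (app (pow7 j) (f i))

/-- The normaliser of the representative, as a list. -/
noncomputable def norm7 : List ℕ := scanList 144 validN tupN testN

theorem norm7_nodup : (norm7.map permOf).Nodup := by
  refine (scanList_nodup tupN_ok (key := fun f => keyN (f 0) (f 1)) ?_).map_on ?_
  · intro k hk hv f hf
    rw [hf 0 (by norm_num), hf 1 (by norm_num)]
    have := allBelow_spec keyN_ok hk
    rw [hv, Bool.not_true, Bool.false_or, Nat.beq_eq] at this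
    exact this
  · intro a ha b hb hab
    rw [← scanList_canon ha, ← scanList_canon hb, hab]

/-- The centralising members of `norm7`. -/
noncomputable def cent7 : List ℕ :=
  norm7.filter fun c => Nat.beq (Nat.mod (keyN (app c 0) (app c 1)) 6) 0

theorem norm7_checks : (Nat.beq norm7.length 126 && Nat.beq cent7.length 42 &&
    memList cent7Witness.1 cent7 && memList cent7Witness.2 cent7 &&
    !(Nat.beq (pmul cent7Witness.1 cent7Witness.2) (pmul cent7Witness.2 cent7Witness.1)) &&
    allList norm7 (fun c => memList (imgMask c (trioA 4)) (trioList 4) &&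
      memList (imgMask c (trioB 4)) (trioList 4))) = true := by
  decide +kernel

theorem pow7_zero_moves : app (pow7 0) 0 = 1 ∧ app (pow7 0) 1 = 2 ∧ app (pow7 0) 2 = 3 ∧
    app (pow7 0) 3 = 4 ∧ app (pow7 0) 4 ≠ 4 := by
  decide +kernel

theorem mem_norm7_of_conj {c : Equiv.Perm GolayPt} (hc : c ∈ M24) {j : ℕ} (hj : j < 6)
    (h : c * permOf (pow7 0) = permOf (pow7 j) * c) :
    code c ∈ norm7 ∧ keyN (idx (c (pt 0))) (idx (c (pt 1))) % 6 = j := by
  have h0 := (pow7_spec 0 (by norm_num)).1.1
  have hy := (pow7_spec j hj).1.1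
  have hstep : ∀ i < 24, idx (c (pt (app (pow7 0) i))) = app (pow7 j) (idx (c (pt i))) := by
    intro i hi
    rw [← permOf_pt h0 hi]
    have := DFunLike.congr_fun h (pt i)
    rw [Equiv.Perm.mul_apply, Equiv.Perm.mul_apply] at this
    rw [this, permOf_apply hy, idx_pt (app_lt hy (idx_lt _))]
  obtain ⟨m0, m1, m2, m3, -⟩ := pow7_zero_moves
  have e1 := hstep 0 (by norm_num)
  have e2 := hstep 1 (by norm_num)
  have e3 := hstep 2 (by norm_num)
  have e4 := hstep 3 (by norm_num)
  rw [m0] at e1
  rw [m1, e1] at e2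
  rw [m2, e2] at e3
  rw [m3, e3] at e4
  set a := idx (c (pt 0)) with ha
  have hal : a < 24 := idx_lt _
  have hd : Nat.div (6 * a + j) 6 = a := show (6 * a + j) / 6 = a by omega
  have hmo : Nat.mod (6 * a + j) 6 = j := show (6 * a + j) % 6 = j by omega
  have hv : validN (6 * a + j) = true := by
    simp only [validN, forceNat_eq, hd, hmo, Bool.not_eq_true', ← Bool.not_eq_true, Nat.beq_eq]
    intro he
    rw [he] at e1
    have := c.injective (idx_injective (e1.trans ha))
    exact absurd (pt_inj (by norm_num) (by norm_num) this) (by norm_num)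
  have hkey : keyN a (idx (c (pt 1))) = 6 * a + j := by
    have := allBelow_spec keyN_ok (show 6 * a + j < 144 by omega)
    rw [hv, Bool.not_true, Bool.false_or, Nat.beq_eq] at this
    simp only [tupN, forceNat_eq, hd, hmo] at this
    rw [e1]
    exact this
  refine ⟨scanList_complete tupN_ok hc (show 6 * a + j < 144 by omega) hv ?_ ?_, by
    rw [hkey]; omega⟩
  · intro i hi
    simp only [tupN, forceNat_eq, hd, hmo]
    rcases i with - | - | - | - | - | i
    · rfl
    · rw [e1]; rfl
    · rw [e2]; rfl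
    · rw [e3]; rfl
    · rw [e4]; rfl
    · omega
  · intro f hf
    simp only [testN, forceNat_eq]
    rw [hf 0 (by norm_num), hf 1 (by norm_num), ← ha, hkey, hmo]
    refine allList_of_forall fun i hi => ?_
    rw [mem_pts24] at hi
    rw [Nat.beq_eq, hf i hi, hf _ (app_lt h0 hi), hstep i hi]

theorem norm7_sound {x : ℕ} (hx : x ∈ norm7) : isPerm x = true ∧ permOf x ∈ M24 ∧
    ∃ j < 6, keyN (app x 0) (app x 1) % 6 = j ∧
      permOf x * permOf (pow7 0) = permOf (pow7 j) * permOf x := by
  obtain ⟨⟨hxp, hxm⟩, -, -, -, -, f, hf, ht⟩ := scanList_sound tupN_ok hx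
  simp only [testN, forceNat_eq] at ht
  rw [hf 0 (by norm_num), hf 1 (by norm_num)] at ht
  set j := keyN (app x 0) (app x 1) % 6 with hj
  have hjl : j < 6 := by omega
  refine ⟨hxp, hxm, j, hjl, rfl, ?_⟩
  have h0 := (pow7_spec 0 (by norm_num)).1.1
  have hy := (pow7_spec j hjl).1.1
  refine Equiv.ext (forall_pt.mpr fun i hi => ?_)
  have h' := allList_spec ht i (mem_pts24.mpr hi)
  rw [Nat.beq_eq, hf i hi, hf _ (app_lt h0 hi)] at h'
  rw [Equiv.Perm.mul_apply, Equiv.Perm.mul_apply, permOf_pt h0 hi, permOf_pt hxp (app_lt h0 hi),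
    permOf_pt hxp hi, permOf_pt hy (app_lt hxp hi), h']
  rfl

/-- The representative as a member of `M24`. -/
noncomputable def rep7 : M24 := ⟨permOf (pow7 0), (pow7_spec 0 (by norm_num)).1.2⟩

theorem orderOf_rep7 : orderOf rep7 = 7 := by
  rw [← Subgroup.orderOf_coe]
  exact rep7_order

theorem mem_zpowers_rep7 {y : M24} :
    y ∈ Subgroup.zpowers rep7 ↔
      (y : Equiv.Perm GolayPt) = 1 ∨ ∃ j < 6, (y : Equiv.Perm GolayPt) = permOf (pow7 j) := by
  classical
  rw [← mem_powers_iff_mem_zpowers, (isOfFinOrder_of_finite rep7).mem_powers_iff_mem_range_orderOf,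
    orderOf_rep7]
  simp only [Finset.mem_image, Finset.mem_range]
  constructor
  · rintro ⟨n, hn, rfl⟩
    rcases n with - | n
    · left; rw [pow_zero]; rfl
    · right
      refine ⟨n, by omega, ?_⟩
      rw [(pow7_spec n (by omega)).2]
      rfl
  · rintro (h | ⟨j, hj, h⟩)
    · refine ⟨0, by norm_num, ?_⟩
      rw [pow_zero]
      exact Subtype.ext h.symm
    · refine ⟨j + 1, by omega, Subtype.ext ?_⟩
      rw [h, (pow7_spec j hj).2]
      rfl

theorem mem_normalizer_rep7 {c : M24} :
    c ∈ Subgroup.normalizer ((Subgroup.zpowers rep7 : Subgroup M24) : Set M24) ↔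
      code (c : Equiv.Perm GolayPt) ∈ norm7 := by
  constructor
  · intro hc
    rw [Subgroup.mem_normalizer_iff] at hc
    rcases mem_zpowers_rep7.mp ((hc rep7).mp (Subgroup.mem_zpowers rep7)) with h1 | ⟨j, hj, h⟩
    · exfalso
      have h2 : c * rep7 * c⁻¹ = 1 := Subtype.ext h1
      have h3 : rep7 = 1 := conj_eq_one_iff.mp h2
      have := orderOf_rep7
      rw [h3, orderOf_one] at this
      omega
    · refine (mem_norm7_of_conj c.2 hj ?_).1
      rw [← h]
      simp [rep7, mul_assoc]
  · intro hc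
    obtain ⟨-, -, j, hj, -, he⟩ := norm7_sound hc
    rw [permOf_code] at he
    have hmem : c * rep7 * c⁻¹ ∈ Subgroup.zpowers rep7 := by
      refine mem_zpowers_rep7.mpr (Or.inr ⟨j, hj, ?_⟩)
      show (c : Equiv.Perm GolayPt) * permOf (pow7 0) * (c : Equiv.Perm GolayPt)⁻¹ = _
      rw [he, mul_inv_cancel_right]
    rw [Subgroup.mem_normalizer_iff_map_conj_eq, MonoidHom.map_zpowers]
    refine Subgroup.eq_of_le_of_card_ge (Subgroup.zpowers_le.mpr hmem) ?_
    rw [Nat.card_zpowers, Nat.card_zpowers]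
    exact (orderOf_injective _ (MulAut.conj c).injective rep7).ge

theorem mem_centralizer_rep7 {c : M24} :
    c ∈ Subgroup.centralizer ((Subgroup.zpowers rep7 : Subgroup M24) : Set M24) ↔
      code (c : Equiv.Perm GolayPt) ∈ cent7 := by
  have hcent : c ∈ Subgroup.centralizer ((Subgroup.zpowers rep7 : Subgroup M24) : Set M24) ↔
      c * rep7 = rep7 * c := by
    rw [Subgroup.mem_centralizer_iff]
    refine ⟨fun h => (h rep7 (Subgroup.mem_zpowers rep7)).symm, fun h y hy => ?_⟩
    obtain ⟨n, rfl⟩ := hy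
    exact ((Commute.zpow_right (show Commute c rep7 from h) n).eq).symm
  rw [hcent, cent7, List.mem_filter, Nat.beq_eq]
  constructor
  · intro h
    obtain ⟨hm, hk⟩ := mem_norm7_of_conj c.2 (show 0 < 6 by norm_num) (congrArg Subtype.val h)
    refine ⟨hm, ?_⟩
    rw [app_code _ (by norm_num), app_code _ (by norm_num)]
    exact hk
  · rintro ⟨hm, hk⟩
    obtain ⟨-, -, j, -, hkey, he⟩ := norm7_sound hm
    change keyN (app (code _) 0) (app (code _) 1) % 6 = 0 at hk
    rw [hk] at hkey
    subst hkey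
    rw [permOf_code] at he
    exact Subtype.ext he

theorem card_of_list {H : Subgroup M24} {L : List ℕ} (hnd : (L.map permOf).Nodup)
    (hL : ∀ x ∈ L, x ∈ norm7) (hmem : ∀ c : M24, c ∈ H ↔ code (c : Equiv.Perm GolayPt) ∈ L) :
    Nat.card H = L.length := by
  classical
  rw [← List.length_map (f := permOf), ← List.toFinset_card_of_nodup hnd, ← Set.ncard_coe_finset,
    ← Nat.card_coe_set_eq]
  refine Nat.card_congr ⟨fun c => ⟨c.1.1, ?_⟩, fun x => ⟨⟨x.1, ?_⟩, ?_⟩, fun c => rfl, fun x => rfl⟩
  · simp only [List.coe_toFinset, Set.mem_ofPred_eq, List.mem_map]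
    exact ⟨_, (hmem c.1).mp c.2, permOf_code _⟩
  · have hx := x.2
    simp only [List.coe_toFinset, Set.mem_ofPred_eq, List.mem_map] at hx
    obtain ⟨a, ha, he⟩ := hx
    rw [← he]
    exact (norm7_sound (hL a ha)).2.1
  · rw [hmem]
    have hx := x.2
    simp only [List.coe_toFinset, Set.mem_ofPred_eq, List.mem_map] at hx
    obtain ⟨a, ha, he⟩ := hx
    show code x.1 ∈ L
    rw [← he, scanList_canon (hL a ha)]
    exact ha

theorem seven_base :
    Nat.card ↥(Subgroup.normalizer ((Subgroup.zpowers rep7 : Subgroup M24) : Set M24)) = 126 ∧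
    Nat.card ↥(Subgroup.centralizer ((Subgroup.zpowers rep7 : Subgroup M24) : Set M24)) = 42 ∧
    (∃ x ∈ Subgroup.centralizer ((Subgroup.zpowers rep7 : Subgroup M24) : Set M24),
      ∃ y ∈ Subgroup.centralizer ((Subgroup.zpowers rep7 : Subgroup M24) : Set M24),
        x * y ≠ y * x) ∧
    ∀ n ∈ Subgroup.normalizer ((Subgroup.zpowers rep7 : Subgroup M24) : Set M24),
      (n : Equiv.Perm GolayPt) • trioSet 4 = trioSet 4 := by
  have h := norm7_checks
  simp only [Bool.and_eq_true, Nat.beq_eq, Bool.not_eq_true', ← Bool.not_eq_true] at h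
  obtain ⟨⟨⟨⟨⟨hn, hc⟩, hw1⟩, hw2⟩, hne⟩, htrio⟩ := h
  have hsub : ∀ x ∈ cent7, x ∈ norm7 := fun x hx => (List.mem_filter.mp hx).1
  refine ⟨?_, ?_, ?_, ?_⟩
  · rw [card_of_list norm7_nodup (fun x hx => hx) fun c => mem_normalizer_rep7, hn]
  · rw [card_of_list (show (cent7.map permOf).Nodup from
      norm7_nodup.sublist (List.filter_sublist.map permOf)) hsub
      fun c => mem_centralizer_rep7, hc]
  · have hA := memList_spec hw1
    have hB := memList_spec hw2
    obtain ⟨hAp, hAm, -⟩ := norm7_sound (hsub _ hA)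
    obtain ⟨hBp, hBm, -⟩ := norm7_sound (hsub _ hB)
    refine ⟨⟨_, hAm⟩, ?_, ⟨_, hBm⟩, ?_, fun e => hne ?_⟩
    · rw [mem_centralizer_rep7]
      show code (permOf cent7Witness.1) ∈ cent7
      rw [scanList_canon (hsub _ hA)]
      exact hA
    · rw [mem_centralizer_rep7]
      show code (permOf cent7Witness.2) ∈ cent7
      rw [scanList_canon (hsub _ hB)]
      exact hB
    · have e' : permOf cent7Witness.1 * permOf cent7Witness.2 =
          permOf cent7Witness.2 * permOf cent7Witness.1 := congrArg Subtype.val e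
      rw [← code_pmul hAp hBp, ← code_pmul hBp hAp, (pmul_spec hAp hBp).2, (pmul_spec hBp hAp).2, e']
  · intro n hn'
    have hm := mem_normalizer_rep7.mp hn'
    have h1 := allList_spec htrio _ hm
    rw [Bool.and_eq_true] at h1
    obtain ⟨ha, -, -, hab, -⟩ := trio_props (show 4 < 3795 by norm_num)
    have hp := isPerm_code (n : Equiv.Perm GolayPt)
    refine trio_ext (smul_mem_trios n.2 (trioSet_mem (by norm_num))) (trioSet_mem (by norm_num))
      (a := (n : Equiv.Perm GolayPt) • fin (trioA 4)) (b := (n : Equiv.Perm GolayPt) • fin (trioB 4))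
      ?_ (Finset.smul_mem_smul_finset (by simp [trioSet]))
      (Finset.smul_mem_smul_finset (by simp [trioSet])) ?_ ?_
    · intro e
      have e' := smul_left_cancel _ e
      have hd := disjoint_fin hab
      rw [← e', disjoint_self, Finset.bot_eq_empty, ← Finset.card_eq_zero,
        fin_card_of_isOctad ha] at hd
      omega
    · rw [← permOf_code (n : Equiv.Perm GolayPt), smul_fin hp, trioSet_eq, mem_fins]
      exact ⟨_, memList_spec h1.1, rfl⟩
    · rw [← permOf_code (n : Equiv.Perm GolayPt), smul_fin hp, trioSet_eq, mem_fins]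
      exact ⟨_, memList_spec h1.2, rfl⟩

end Cfsg.Agent.H12
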