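import Cfsg.Agent.H12.StabRoots

/-!
Orbits of the stabiliser of a dpair object on the sextets.
-/

set_option autoImplicit false

namespace Cfsg.Agent.H12

open scoped Pointwise

theorem stabDodPairSext_check396 : classCheck 1771 sextList sextImg stabDodPairGens rootDodPairMasks
    48 4 396 396 stabDodPairSextTree396 = true := by
  decide +kernel

theorem stabDodPairSext_check495 : classCheck 1771 sextList sextImg stabDodPairGens rootDodPairMasks
    64 3 495 495 stabDodPairSextTree495 = true := by
  decide +kernel

theorem stabDodPairSext_check880 : classCheck 1771 sextList sextImg stabDodPairGens rootDodPairMasks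
    60 0 880 880 stabDodPairSextTree880 = true := by
  decide +kernel

theorem stabDodPairSext_cover : classesCover 1771 sextList rootDodPairMasks [48, 64, 60] = true := by
  decide +kernel

/-- The orbits, as classes of `phi`. -/
theorem stabDodPairSext_orbits (g : M24) :
    (∃ X ∈ sextets, MulAction.orbit ↥(MulAction.stabilizer M24 (g • dodPair0)) X
        = phiClass famADodPair famBSext sextets (g • dodPair0) 48 ∧
      (phiClass famADodPair famBSext sextets (g • dodPair0) 48).ncard = 396) ∧
    (∃ X ∈ sextets, MulAction.orbit ↥(MulAction.stabilizer M24 (g • dodPair0)) X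
        = phiClass famADodPair famBSext sextets (g • dodPair0) 64 ∧
      (phiClass famADodPair famBSext sextets (g • dodPair0) 64).ncard = 495) ∧
    (∃ X ∈ sextets, MulAction.orbit ↥(MulAction.stabilizer M24 (g • dodPair0)) X
        = phiClass famADodPair famBSext sextets (g • dodPair0) 60 ∧
      (phiClass famADodPair famBSext sextets (g • dodPair0) 60).ncard = 880) ∧
    (sextets = phiClass famADodPair famBSext sextets (g • dodPair0) 48 ∪ phiClass famADodPair famBSext sextets (g • dodPair0) 64 ∪ phiClass famADodPair famBSext sextets (g • dodPair0) 60) := by
  refine ⟨?_, ?_, ?_, ?_⟩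
  · exact exists_orbit_of_smul (smul_famADodPair) (smul_famBSext) smul_mem_sextetsM
      (orbit_eq_phiClass (famA := famADodPair) (famB := famBSext) (S := sextets) (a := dodPair0)
        (dec := sextSet) (lst := sextList) (smul_famADodPair) (smul_famBSext) smul_mem_sextetsM
        sextets_eq (by norm_num) sextSet_injOn lstSext_spec rootDodPair_spec stabDodPairGens_spec
        imgSext_spec stabDodPairSext_check396) g
  · exact exists_orbit_of_smul (smul_famADodPair) (smul_famBSext) smul_mem_sextetsM
      (orbit_eq_phiClass (famA := famADodPair) (famB := famBSext) (S := sextets) (a := dodPair0)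
        (dec := sextSet) (lst := sextList) (smul_famADodPair) (smul_famBSext) smul_mem_sextetsM
        sextets_eq (by norm_num) sextSet_injOn lstSext_spec rootDodPair_spec stabDodPairGens_spec
        imgSext_spec stabDodPairSext_check495) g
  · exact exists_orbit_of_smul (smul_famADodPair) (smul_famBSext) smul_mem_sextetsM
      (orbit_eq_phiClass (famA := famADodPair) (famB := famBSext) (S := sextets) (a := dodPair0)
        (dec := sextSet) (lst := sextList) (smul_famADodPair) (smul_famBSext) smul_mem_sextetsM
        sextets_eq (by norm_num) sextSet_injOn lstSext_spec rootDodPair_spec stabDodPairGens_spec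
        imgSext_spec stabDodPairSext_check880) g
  · refine Set.ext fun x => ⟨fun hx => ?_, ?_⟩
    · have := phi_mem_of_cover (famA := famADodPair) (famB := famBSext) (S := sextets) (a := dodPair0)
        (dec := sextSet) (lst := sextList) (smul_famADodPair) (smul_famBSext) smul_mem_sextetsM
        sextets_eq lstSext_spec rootDodPair_spec stabDodPairSext_cover g hx
      simp only [List.mem_cons, List.not_mem_nil, or_false] at this
      rcases this with h | h | h
      · exact Or.inl (Or.inl (⟨hx, h⟩))
      · exact Or.inl (Or.inr ⟨hx, h⟩)
      · exact Or.inr ⟨hx, h⟩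
    · rintro ((h | h) | h) <;> exact h.1

end Cfsg.Agent.H12
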