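import Cfsg.Agent.H12.StabRoots
import Cfsg.Agent.H12.OrbitData2
import Cfsg.Agent.H11.OctadStab

/-!
Orbits of an octad stabiliser on the octads, joint stabilisers of two octads, and distances in
the graph of disjoint octads.
-/

set_option autoImplicit false

namespace Cfsg.Agent.H12

open scoped Pointwise

theorem stabBaseOctGens_check : (stabBaseOctGens.all fun x =>
    genOK x && Nat.beq (imgFast x.2 5279) 5279) = true := by
  decide +kernel

theorem stabBaseOctGens_spec :
    ∀ x ∈ stabBaseOctGens, genOK x = true ∧ permOf x.1 • octSet 0 = octSet 0 := by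
  intro x hx
  have h := List.all_eq_true.mp stabBaseOctGens_check x hx
  rw [Bool.and_eq_true, Nat.beq_eq] at h
  refine ⟨h.1, ?_⟩
  rw [octSet_zero, smul_fin_fast h.1 (by norm_num), h.2]

theorem octOct_check280 : classCheck 759 octList1 octImg stabBaseOctGens rootOctMasks
    16 1 280 280 baseOctOctTree280 = true := by decide +kernel

theorem octOct_check448 : classCheck 759 octList1 octImg stabBaseOctGens rootOctMasks
    4 5 448 448 baseOctOctTree448 = true := by decide +kernel

theorem octOct_check30 : classCheck 759 octList1 octImg stabBaseOctGens rootOctMasks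
    0 330 30 30 baseOctOctTree30 = true := by decide +kernel

theorem octOct_cover : classesCover 759 octList1 rootOctMasks [64, 16, 4, 0] = true := by
  decide +kernel

theorem phi_singleton (a b : Finset GolayPt) : phi {a} {b} = (a ∩ b).card ^ 2 := by
  simp [phi]

/-- Two octads meet in 0, 2, 4 or 8 points. -/
theorem octad_meet_cases {o o' : Finset GolayPt} (ho : o ∈ octads) (ho' : o' ∈ octads) :
    (o ∩ o').card = 8 ∨ (o ∩ o').card = 4 ∨ (o ∩ o').card = 2 ∨ (o ∩ o').card = 0 := by
  obtain ⟨g, rfl⟩ := exists_octad ho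
  have h := phi_mem_of_cover (famA := famAOct) (famB := famBOct) (S := octads) (a := octSet 0)
    (dec := octSet) (lst := octList1) smul_famAOct smul_famBOct smul_mem_octadsM octads_eq
    lstOct_spec rootOct_spec octOct_cover g ho'
  rw [phi_singleton] at h
  simp only [List.mem_cons, List.not_mem_nil, or_false] at h
  rcases h with h | h | h | h
  · left; nlinarith
  · right; left; nlinarith
  · right; right; left; nlinarith
  · right; right; right; simpa using h

/-- The orbit of `o'` under the stabiliser of `o` is the set of octads meeting `o` equally. -/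
theorem orbit_octad_octad {o o' : Finset GolayPt} (ho : o ∈ octads) (ho' : o' ∈ octads) {n : ℕ}
    {c : ℕ} (hc : (o ∩ o').card = c) (hn : (c = 4 ∧ n = 280) ∨ (c = 2 ∧ n = 448) ∨ (c = 0 ∧ n = 30)) :
    (MulAction.orbit ↥(MulAction.stabilizer M24 o) o').ncard = n := by
  obtain ⟨g, rfl⟩ := exists_octad ho
  have hmem : o' ∈ phiClass famAOct famBOct octads (g • octSet 0) (c ^ 2) :=
    ⟨ho', by rw [phi_singleton, hc]⟩
  have key : ∀ {root m len : ℕ} {tbl : List ℕ}, classCheck 759 octList1 octImg stabBaseOctGens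
      rootOctMasks (c ^ 2) root m len tbl = true →
      (MulAction.orbit ↥(MulAction.stabilizer M24 (g • octSet 0)) o').ncard = m := by
    intro root m len tbl h
    obtain ⟨X, -, he, hcard⟩ := exists_orbit_of_smul (smul_famAOct) (smul_famBOct) smul_mem_octadsM
      (orbit_eq_phiClass (famA := famAOct) (famB := famBOct) (S := octads) (a := octSet 0)
        (dec := octSet) (lst := octList1) smul_famAOct smul_famBOct smul_mem_octadsM
        octads_eq (by norm_num) octSet_injOn lstOct_spec rootOct_spec stabBaseOctGens_spec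
        imgOct_spec h) g
    rw [← he] at hmem
    rw [MulAction.orbit_eq_iff.mpr hmem, he, hcard]
  rcases hn with ⟨rfl, rfl⟩ | ⟨rfl, rfl⟩ | ⟨rfl, rfl⟩
  exacts [key octOct_check280, key octOct_check448, key octOct_check30]

/-- Orbit-stabiliser for two objects. -/
theorem ncard_orbit_mul_card_inf {G α β : Type*} [Group G] [MulAction G α] [MulAction G β]
    (a : α) (b : β) :
    (MulAction.orbit ↥(MulAction.stabilizer G a) b).ncard *
      Nat.card ↥(MulAction.stabilizer G a ⊓ MulAction.stabilizer G b) =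
      Nat.card ↥(MulAction.stabilizer G a) := by
  have he : MulAction.stabilizer ↥(MulAction.stabilizer G a) b =
      (MulAction.stabilizer G b).subgroupOf (MulAction.stabilizer G a) := by
    ext x
    exact Iff.rfl
  rw [← Subgroup.index_mul_card (MulAction.stabilizer ↥(MulAction.stabilizer G a) b),
    MulAction.index_stabilizer]
  congr 1
  rw [he, ← Subgroup.inf_subgroupOf_left]
  exact (Nat.card_congr (Subgroup.subgroupOfEquivOfLe inf_le_left).toEquiv).symm

theorem card_stab_two_octads {o o' : Finset GolayPt} (ho : o ∈ octads) (ho' : o' ∈ octads)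
    {c m : ℕ} (hc : (o ∩ o').card = c)
    (hm : (c = 0 ∧ m = 10752) ∨ (c = 4 ∧ m = 1152) ∨ (c = 2 ∧ m = 720)) :
    Nat.card ↥(MulAction.stabilizer M24 o ⊓ MulAction.stabilizer M24 o') = m := by
  have h0 : Nat.card ↥(MulAction.stabilizer M24 o) = 322560 := by
    have h1 := Subgroup.index_mul_card (MulAction.stabilizer M24 o)
    rw [MulAction.index_stabilizer, H11.orbit_octad ho, octads_ncard, H11.card_M24] at h1
    omega
  have h := ncard_orbit_mul_card_inf (G := M24) o o'
  rw [h0] at h
  rcases hm with ⟨rfl, rfl⟩ | ⟨rfl, rfl⟩ | ⟨rfl, rfl⟩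
  · rw [orbit_octad_octad ho ho' hc (Or.inr (Or.inr ⟨rfl, rfl⟩))] at h
    omega
  · rw [orbit_octad_octad ho ho' hc (Or.inl ⟨rfl, rfl⟩)] at h
    omega
  · rw [orbit_octad_octad ho ho' hc (Or.inr (Or.inl ⟨rfl, rfl⟩))] at h
    omega

/-! ### The disjointness graph -/

theorem octGraph_paths_check : (allBelow 10 759 fun j => forceNat (octMask j) fun b =>
    forceNat (pop (Nat.land 5279 b)) fun c =>
      (!(Nat.beq c 4) || octList.any fun k =>
        Nat.beq (Nat.land 5279 k) 0 && Nat.beq (Nat.land k b) 0) &&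
      (!(Nat.beq c 2) || (allList octList (fun k =>
          !(Nat.beq (Nat.land 5279 k) 0 && Nat.beq (Nat.land k b) 0)) &&
        octList.any fun k => Nat.beq (Nat.land k b) 0 && Nat.beq (pop (Nat.land 5279 k)) 4))) =
      true := by
  decide +kernel

theorem octList_octad : ∀ k ∈ octList, isOctad k = true := by
  have h : (allList octList isOctad) = true := by decide +kernel
  exact fun k hk => allList_spec h k hk

theorem octad_paths_base {b : Finset GolayPt} (hb : b ∈ octads) :
    ((octSet 0 ∩ b).card = 4 → ∃ k ∈ octads, Disjoint (octSet 0) k ∧ Disjoint k b) ∧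
    ((octSet 0 ∩ b).card = 2 → (¬ ∃ k ∈ octads, Disjoint (octSet 0) k ∧ Disjoint k b) ∧
      ∃ k ∈ octads, Disjoint k b ∧ (octSet 0 ∩ k).card = 4) := by
  obtain ⟨j, hj, rfl⟩ := octads_eq ▸ hb
  have h := allBelow_spec octGraph_paths_check hj
  simp only [forceNat_eq, Bool.and_eq_true, Bool.or_eq_true, Bool.not_eq_true',
    List.any_eq_true, Nat.beq_eq] at h
  have hcard : ∀ x, (fin 5279 ∩ fin x).card = pop (5279 &&& x) := by
    intro x; rw [← fin_land, card_fin]
  have hmemO : ∀ k ∈ octList, fin k ∈ octads := fun k hk =>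
    (fin_mem_octads (isOctad_lt (octList_octad k hk))).mpr (octList_octad k hk)
  rw [octSet_zero, octSet, hcard]
  refine ⟨fun hc => ?_, fun hc => ?_⟩
  · obtain h1 | ⟨k, hk, hk1, hk2⟩ := h.1
    · rw [show Nat.land 5279 (octMask j) = 5279 &&& octMask j from rfl, hc] at h1
      simp at h1
    · exact ⟨_, hmemO k hk, disjoint_fin hk1, disjoint_fin hk2⟩
  · obtain h1 | ⟨h1, k, hk, hk1, hk2⟩ := h.2
    · rw [show Nat.land 5279 (octMask j) = 5279 &&& octMask j from rfl, hc] at h1
      simp at h1
    · refine ⟨?_, fin k, hmemO k hk, disjoint_fin hk1, by rw [hcard]; exact hk2⟩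
      rintro ⟨_, hm, hd1, hd2⟩
      obtain ⟨i, hi, rfl⟩ := octads_eq ▸ hm
      have h2 := allList_spec h1 _ (octMask_mem_octList hi)
      rw [octSet, disjoint_fin_iff (by norm_num)] at hd1
      rw [octSet, disjoint_fin_iff (octMask_lt hi)] at hd2
      have e1 : Nat.land 5279 (octMask i) = 0 := hd1
      have e2 : Nat.land (octMask i) (octMask j) = 0 := hd2
      rw [Nat.beq_eq.to_iff.mpr e1, Nat.beq_eq.to_iff.mpr e2] at h2
      exact absurd h2 (by decide)

/-- Common neighbours in the graph of disjoint octads. -/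
theorem octad_paths {a b : Finset GolayPt} (ha : a ∈ octads) (hb : b ∈ octads) :
    ((a ∩ b).card = 4 → ∃ k ∈ octads, Disjoint a k ∧ Disjoint k b) ∧
    ((a ∩ b).card = 2 → (¬ ∃ k ∈ octads, Disjoint a k ∧ Disjoint k b) ∧
      ∃ k ∈ octads, Disjoint k b ∧ (a ∩ k).card = 4) := by
  obtain ⟨g, rfl⟩ := exists_octad ha
  have hb' := smul_mem_octadsM _ (M24.inv_mem g.2) _ hb
  obtain ⟨b', hb'', rfl⟩ : ∃ b' ∈ octads, g • b' = b :=
    ⟨_, hb', smul_inv_smul (g : Equiv.Perm GolayPt) b⟩
  have hd : ∀ x y : Finset GolayPt, Disjoint (g • x) (g • y) ↔ Disjoint x y := by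
    intro x y
    rw [Finset.disjoint_iff_inter_eq_empty, Finset.disjoint_iff_inter_eq_empty,
      ← Finset.smul_finset_inter, ← Finset.card_eq_zero, Finset.card_smul_finset,
      Finset.card_eq_zero]
  have hc : ∀ x y : Finset GolayPt, (g • x ∩ g • y).card = (x ∩ y).card := by
    intro x y
    rw [← Finset.smul_finset_inter, Finset.card_smul_finset]
  have hmove : ∀ k ∈ octads, g • k ∈ octads := fun k hk => smul_mem_octadsM _ g.2 _ hk
  have hback : ∀ k ∈ octads, ∃ k' ∈ octads, k = g • k' := fun k hk =>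
    ⟨_, smul_mem_octadsM _ (M24.inv_mem g.2) _ hk, (smul_inv_smul (g : Equiv.Perm GolayPt) k).symm⟩
  obtain ⟨h4, h2⟩ := octad_paths_base hb''
  rw [hc]
  refine ⟨fun h => ?_, fun h => ⟨?_, ?_⟩⟩
  · obtain ⟨k, hk, k1, k2⟩ := h4 h
    exact ⟨g • k, hmove k hk, (hd _ _).mpr k1, (hd _ _).mpr k2⟩
  · rintro ⟨k, hk, k1, k2⟩
    obtain ⟨k', hk', rfl⟩ := hback k hk
    exact (h2 h).1 ⟨k', hk', (hd _ _).mp k1, (hd _ _).mp k2⟩
  · obtain ⟨k, hk, k1, k2⟩ := (h2 h).2
    exact ⟨g • k, hmove k hk, (hd _ _).mpr k1, by rw [hc]; exact k2⟩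

end Cfsg.Agent.H12
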