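import Cfsg.Agent.H12.StabRoots

/-!
Orbits of the stabiliser of a oct object on the sextets.
-/

set_option autoImplicit false

namespace Cfsg.Agent.H12

open scoped Pointwise

theorem stabOctSext_check35 : classCheck 1771 sextList sextImg stabOctGens rootOctMasks
    32 0 35 35 stabOctSextTree35 = true := by
  decide +kernel

theorem stabOctSext_check840 : classCheck 1771 sextList sextImg stabOctGens rootOctMasks
    16 16 840 840 stabOctSextTree840 = true := by
  decide +kernel

theorem stabOctSext_check896 : classCheck 1771 sextList sextImg stabOctGens rootOctMasks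
    14 4 896 896 stabOctSextTree896 = true := by
  decide +kernel

theorem stabOctSext_cover : classesCover 1771 sextList rootOctMasks [32, 16, 14] = true := by
  decide +kernel

/-- The orbits, as classes of `phi`. -/
theorem stabOctSext_orbits (g : M24) :
    (∃ X ∈ sextets, MulAction.orbit ↥(MulAction.stabilizer M24 (g • octSet 0)) X
        = phiClass famAOct famBSext sextets (g • octSet 0) 32 ∧
      (phiClass famAOct famBSext sextets (g • octSet 0) 32).ncard = 35) ∧
    (∃ X ∈ sextets, MulAction.orbit ↥(MulAction.stabilizer M24 (g • octSet 0)) X
        = phiClass famAOct famBSext sextets (g • octSet 0) 16 ∧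
      (phiClass famAOct famBSext sextets (g • octSet 0) 16).ncard = 840) ∧
    (∃ X ∈ sextets, MulAction.orbit ↥(MulAction.stabilizer M24 (g • octSet 0)) X
        = phiClass famAOct famBSext sextets (g • octSet 0) 14 ∧
      (phiClass famAOct famBSext sextets (g • octSet 0) 14).ncard = 896) ∧
    (sextets = phiClass famAOct famBSext sextets (g • octSet 0) 32 ∪ phiClass famAOct famBSext sextets (g • octSet 0) 16 ∪ phiClass famAOct famBSext sextets (g • octSet 0) 14) := by
  refine ⟨?_, ?_, ?_, ?_⟩
  · exact exists_orbit_of_smul (smul_famAOct) (smul_famBSext) smul_mem_sextetsM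
      (orbit_eq_phiClass (famA := famAOct) (famB := famBSext) (S := sextets) (a := octSet 0)
        (dec := sextSet) (lst := sextList) (smul_famAOct) (smul_famBSext) smul_mem_sextetsM
        sextets_eq (by norm_num) sextSet_injOn lstSext_spec rootOct_spec stabOctGens_spec
        imgSext_spec stabOctSext_check35) g
  · exact exists_orbit_of_smul (smul_famAOct) (smul_famBSext) smul_mem_sextetsM
      (orbit_eq_phiClass (famA := famAOct) (famB := famBSext) (S := sextets) (a := octSet 0)
        (dec := sextSet) (lst := sextList) (smul_famAOct) (smul_famBSext) smul_mem_sextetsM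
        sextets_eq (by norm_num) sextSet_injOn lstSext_spec rootOct_spec stabOctGens_spec
        imgSext_spec stabOctSext_check840) g
  · exact exists_orbit_of_smul (smul_famAOct) (smul_famBSext) smul_mem_sextetsM
      (orbit_eq_phiClass (famA := famAOct) (famB := famBSext) (S := sextets) (a := octSet 0)
        (dec := sextSet) (lst := sextList) (smul_famAOct) (smul_famBSext) smul_mem_sextetsM
        sextets_eq (by norm_num) sextSet_injOn lstSext_spec rootOct_spec stabOctGens_spec
        imgSext_spec stabOctSext_check896) g
  · refine Set.ext fun x => ⟨fun hx => ?_, ?_⟩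
    · have := phi_mem_of_cover (famA := famAOct) (famB := famBSext) (S := sextets) (a := octSet 0)
        (dec := sextSet) (lst := sextList) (smul_famAOct) (smul_famBSext) smul_mem_sextetsM
        sextets_eq lstSext_spec rootOct_spec stabOctSext_cover g hx
      simp only [List.mem_cons, List.not_mem_nil, or_false] at this
      rcases this with h | h | h
      · exact Or.inl (Or.inl (⟨hx, h⟩))
      · exact Or.inl (Or.inr ⟨hx, h⟩)
      · exact Or.inr ⟨hx, h⟩
    · rintro ((h | h) | h) <;> exact h.1

end Cfsg.Agent.H12
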