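import Cfsg.Agent.H12.StabRoots

/-!
Orbits of the stabiliser of a sext object on the octads.
-/

set_option autoImplicit false

namespace Cfsg.Agent.H12

open scoped Pointwise

theorem stabSextOct_check15 : classCheck 759 octList1 octImg stabSextGens rootSextMasks
    32 0 15 15 stabSextOctTree15 = true := by
  decide +kernel

theorem stabSextOct_check360 : classCheck 759 octList1 octImg stabSextGens rootSextMasks
    16 2 360 360 stabSextOctTree360 = true := by
  decide +kernel

theorem stabSextOct_check384 : classCheck 759 octList1 octImg stabSextGens rootSextMasks
    14 1 384 384 stabSextOctTree384 = true := by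
  decide +kernel

theorem stabSextOct_cover : classesCover 759 octList1 rootSextMasks [32, 16, 14] = true := by
  decide +kernel

/-- The orbits, as classes of `phi`. -/
theorem stabSextOct_orbits (g : M24) :
    (∃ X ∈ octads, MulAction.orbit ↥(MulAction.stabilizer M24 (g • sextSet 0)) X
        = phiClass famASext famBOct octads (g • sextSet 0) 32 ∧
      (phiClass famASext famBOct octads (g • sextSet 0) 32).ncard = 15) ∧
    (∃ X ∈ octads, MulAction.orbit ↥(MulAction.stabilizer M24 (g • sextSet 0)) X
        = phiClass famASext famBOct octads (g • sextSet 0) 16 ∧
      (phiClass famASext famBOct octads (g • sextSet 0) 16).ncard = 360) ∧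
    (∃ X ∈ octads, MulAction.orbit ↥(MulAction.stabilizer M24 (g • sextSet 0)) X
        = phiClass famASext famBOct octads (g • sextSet 0) 14 ∧
      (phiClass famASext famBOct octads (g • sextSet 0) 14).ncard = 384) ∧
    (octads = phiClass famASext famBOct octads (g • sextSet 0) 32 ∪ phiClass famASext famBOct octads (g • sextSet 0) 16 ∪ phiClass famASext famBOct octads (g • sextSet 0) 14) := by
  refine ⟨?_, ?_, ?_, ?_⟩
  · exact exists_orbit_of_smul (smul_famASext) (smul_famBOct) smul_mem_octadsM
      (orbit_eq_phiClass (famA := famASext) (famB := famBOct) (S := octads) (a := sextSet 0)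
        (dec := octSet) (lst := octList1) (smul_famASext) (smul_famBOct) smul_mem_octadsM
        octads_eq (by norm_num) octSet_injOn lstOct_spec rootSext_spec stabSextGens_spec
        imgOct_spec stabSextOct_check15) g
  · exact exists_orbit_of_smul (smul_famASext) (smul_famBOct) smul_mem_octadsM
      (orbit_eq_phiClass (famA := famASext) (famB := famBOct) (S := octads) (a := sextSet 0)
        (dec := octSet) (lst := octList1) (smul_famASext) (smul_famBOct) smul_mem_octadsM
        octads_eq (by norm_num) octSet_injOn lstOct_spec rootSext_spec stabSextGens_spec
        imgOct_spec stabSextOct_check360) g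
  · exact exists_orbit_of_smul (smul_famASext) (smul_famBOct) smul_mem_octadsM
      (orbit_eq_phiClass (famA := famASext) (famB := famBOct) (S := octads) (a := sextSet 0)
        (dec := octSet) (lst := octList1) (smul_famASext) (smul_famBOct) smul_mem_octadsM
        octads_eq (by norm_num) octSet_injOn lstOct_spec rootSext_spec stabSextGens_spec
        imgOct_spec stabSextOct_check384) g
  · refine Set.ext fun x => ⟨fun hx => ?_, ?_⟩
    · have := phi_mem_of_cover (famA := famASext) (famB := famBOct) (S := octads) (a := sextSet 0)
        (dec := octSet) (lst := octList1) (smul_famASext) (smul_famBOct) smul_mem_octadsM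
        octads_eq lstOct_spec rootSext_spec stabSextOct_cover g hx
      simp only [List.mem_cons, List.not_mem_nil, or_false] at this
      rcases this with h | h | h
      · exact Or.inl (Or.inl (⟨hx, h⟩))
      · exact Or.inl (Or.inr ⟨hx, h⟩)
      · exact Or.inr ⟨hx, h⟩
    · rintro ((h | h) | h) <;> exact h.1

end Cfsg.Agent.H12
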