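import Cfsg.Agent.H12.StabRoots

/-!
Orbits of the stabiliser of a sext object on the trios.
-/

set_option autoImplicit false

namespace Cfsg.Agent.H12

open scoped Pointwise

theorem stabSextTrio_check15 : classCheck 3795 trioList trioImg stabSextGens rootSextMasks
    96 6 15 15 stabSextTrioTree15 = true := by
  decide +kernel

theorem stabSextTrio_check180 : classCheck 3795 trioList trioImg stabSextGens rootSextMasks
    64 0 180 180 stabSextTrioTree180 = true := by
  decide +kernel

theorem stabSextTrio_check720 : classCheck 3795 trioList trioImg stabSextGens rootSextMasks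
    48 32 720 720 stabSextTrioTree720 = true := by
  decide +kernel

theorem stabSextTrio_check2880 : classCheck 3795 trioList trioImg stabSextGens rootSextMasks
    44 15 2880 2880 stabSextTrioTree2880 = true := by
  decide +kernel

theorem stabSextTrio_cover : classesCover 3795 trioList rootSextMasks [96, 64, 48, 44] = true := by
  decide +kernel

/-- The orbits, as classes of `phi`. -/
theorem stabSextTrio_orbits (g : M24) :
    (∃ X ∈ trios, MulAction.orbit ↥(MulAction.stabilizer M24 (g • sextSet 0)) X
        = phiClass famASext famBTrio trios (g • sextSet 0) 96 ∧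
      (phiClass famASext famBTrio trios (g • sextSet 0) 96).ncard = 15) ∧
    (∃ X ∈ trios, MulAction.orbit ↥(MulAction.stabilizer M24 (g • sextSet 0)) X
        = phiClass famASext famBTrio trios (g • sextSet 0) 64 ∧
      (phiClass famASext famBTrio trios (g • sextSet 0) 64).ncard = 180) ∧
    (∃ X ∈ trios, MulAction.orbit ↥(MulAction.stabilizer M24 (g • sextSet 0)) X
        = phiClass famASext famBTrio trios (g • sextSet 0) 48 ∧
      (phiClass famASext famBTrio trios (g • sextSet 0) 48).ncard = 720) ∧
    (∃ X ∈ trios, MulAction.orbit ↥(MulAction.stabilizer M24 (g • sextSet 0)) X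
        = phiClass famASext famBTrio trios (g • sextSet 0) 44 ∧
      (phiClass famASext famBTrio trios (g • sextSet 0) 44).ncard = 2880) ∧
    (trios = phiClass famASext famBTrio trios (g • sextSet 0) 96 ∪ phiClass famASext famBTrio trios (g • sextSet 0) 64 ∪ phiClass famASext famBTrio trios (g • sextSet 0) 48 ∪ phiClass famASext famBTrio trios (g • sextSet 0) 44) := by
  refine ⟨?_, ?_, ?_, ?_, ?_⟩
  · exact exists_orbit_of_smul (smul_famASext) (smul_famBTrio) smul_mem_triosM
      (orbit_eq_phiClass (famA := famASext) (famB := famBTrio) (S := trios) (a := sextSet 0)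
        (dec := trioSet) (lst := trioList) (smul_famASext) (smul_famBTrio) smul_mem_triosM
        trios_eq (by norm_num) trioSet_injOn lstTrio_spec rootSext_spec stabSextGens_spec
        imgTrio_spec stabSextTrio_check15) g
  · exact exists_orbit_of_smul (smul_famASext) (smul_famBTrio) smul_mem_triosM
      (orbit_eq_phiClass (famA := famASext) (famB := famBTrio) (S := trios) (a := sextSet 0)
        (dec := trioSet) (lst := trioList) (smul_famASext) (smul_famBTrio) smul_mem_triosM
        trios_eq (by norm_num) trioSet_injOn lstTrio_spec rootSext_spec stabSextGens_spec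
        imgTrio_spec stabSextTrio_check180) g
  · exact exists_orbit_of_smul (smul_famASext) (smul_famBTrio) smul_mem_triosM
      (orbit_eq_phiClass (famA := famASext) (famB := famBTrio) (S := trios) (a := sextSet 0)
        (dec := trioSet) (lst := trioList) (smul_famASext) (smul_famBTrio) smul_mem_triosM
        trios_eq (by norm_num) trioSet_injOn lstTrio_spec rootSext_spec stabSextGens_spec
        imgTrio_spec stabSextTrio_check720) g
  · exact exists_orbit_of_smul (smul_famASext) (smul_famBTrio) smul_mem_triosM
      (orbit_eq_phiClass (famA := famASext) (famB := famBTrio) (S := trios) (a := sextSet 0)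
        (dec := trioSet) (lst := trioList) (smul_famASext) (smul_famBTrio) smul_mem_triosM
        trios_eq (by norm_num) trioSet_injOn lstTrio_spec rootSext_spec stabSextGens_spec
        imgTrio_spec stabSextTrio_check2880) g
  · refine Set.ext fun x => ⟨fun hx => ?_, ?_⟩
    · have := phi_mem_of_cover (famA := famASext) (famB := famBTrio) (S := trios) (a := sextSet 0)
        (dec := trioSet) (lst := trioList) (smul_famASext) (smul_famBTrio) smul_mem_triosM
        trios_eq lstTrio_spec rootSext_spec stabSextTrio_cover g hx
      simp only [List.mem_cons, List.not_mem_nil, or_false] at this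
      rcases this with h | h | h | h
      · exact Or.inl (Or.inl (Or.inl (⟨hx, h⟩)))
      · exact Or.inl (Or.inl (Or.inr ⟨hx, h⟩))
      · exact Or.inl (Or.inr ⟨hx, h⟩)
      · exact Or.inr ⟨hx, h⟩
    · rintro (((h | h) | h) | h) <;> exact h.1

end Cfsg.Agent.H12
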