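import Cfsg.Agent.H12.StabRoots

/-!
Orbits of the stabiliser of a trio object on the octads.
-/

set_option autoImplicit false

namespace Cfsg.Agent.H12

open scoped Pointwise

theorem stabTrioOct_check3 : classCheck 759 octList1 octImg stabTrioGens rootTrioMasks
    64 0 3 3 stabTrioOctTree3 = true := by
  decide +kernel

theorem stabTrioOct_check84 : classCheck 759 octList1 octImg stabTrioGens rootTrioMasks
    32 9 84 84 stabTrioOctTree84 = true := by
  decide +kernel

theorem stabTrioOct_check672 : classCheck 759 octList1 octImg stabTrioGens rootTrioMasks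
    24 1 672 672 stabTrioOctTree672 = true := by
  decide +kernel

theorem stabTrioOct_cover : classesCover 759 octList1 rootTrioMasks [64, 32, 24] = true := by
  decide +kernel

/-- The orbits, as classes of `phi`. -/
theorem stabTrioOct_orbits (g : M24) :
    (∃ X ∈ octads, MulAction.orbit ↥(MulAction.stabilizer M24 (g • trioSet 0)) X
        = phiClass famATrio famBOct octads (g • trioSet 0) 64 ∧
      (phiClass famATrio famBOct octads (g • trioSet 0) 64).ncard = 3) ∧
    (∃ X ∈ octads, MulAction.orbit ↥(MulAction.stabilizer M24 (g • trioSet 0)) X
        = phiClass famATrio famBOct octads (g • trioSet 0) 32 ∧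
      (phiClass famATrio famBOct octads (g • trioSet 0) 32).ncard = 84) ∧
    (∃ X ∈ octads, MulAction.orbit ↥(MulAction.stabilizer M24 (g • trioSet 0)) X
        = phiClass famATrio famBOct octads (g • trioSet 0) 24 ∧
      (phiClass famATrio famBOct octads (g • trioSet 0) 24).ncard = 672) ∧
    (octads = phiClass famATrio famBOct octads (g • trioSet 0) 64 ∪ phiClass famATrio famBOct octads (g • trioSet 0) 32 ∪ phiClass famATrio famBOct octads (g • trioSet 0) 24) := by
  refine ⟨?_, ?_, ?_, ?_⟩
  · exact exists_orbit_of_smul (smul_famATrio) (smul_famBOct) smul_mem_octadsM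
      (orbit_eq_phiClass (famA := famATrio) (famB := famBOct) (S := octads) (a := trioSet 0)
        (dec := octSet) (lst := octList1) (smul_famATrio) (smul_famBOct) smul_mem_octadsM
        octads_eq (by norm_num) octSet_injOn lstOct_spec rootTrio_spec stabTrioGens_spec
        imgOct_spec stabTrioOct_check3) g
  · exact exists_orbit_of_smul (smul_famATrio) (smul_famBOct) smul_mem_octadsM
      (orbit_eq_phiClass (famA := famATrio) (famB := famBOct) (S := octads) (a := trioSet 0)
        (dec := octSet) (lst := octList1) (smul_famATrio) (smul_famBOct) smul_mem_octadsM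
        octads_eq (by norm_num) octSet_injOn lstOct_spec rootTrio_spec stabTrioGens_spec
        imgOct_spec stabTrioOct_check84) g
  · exact exists_orbit_of_smul (smul_famATrio) (smul_famBOct) smul_mem_octadsM
      (orbit_eq_phiClass (famA := famATrio) (famB := famBOct) (S := octads) (a := trioSet 0)
        (dec := octSet) (lst := octList1) (smul_famATrio) (smul_famBOct) smul_mem_octadsM
        octads_eq (by norm_num) octSet_injOn lstOct_spec rootTrio_spec stabTrioGens_spec
        imgOct_spec stabTrioOct_check672) g
  · refine Set.ext fun x => ⟨fun hx => ?_, ?_⟩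
    · have := phi_mem_of_cover (famA := famATrio) (famB := famBOct) (S := octads) (a := trioSet 0)
        (dec := octSet) (lst := octList1) (smul_famATrio) (smul_famBOct) smul_mem_octadsM
        octads_eq lstOct_spec rootTrio_spec stabTrioOct_cover g hx
      simp only [List.mem_cons, List.not_mem_nil, or_false] at this
      rcases this with h | h | h
      · exact Or.inl (Or.inl (⟨hx, h⟩))
      · exact Or.inl (Or.inr ⟨hx, h⟩)
      · exact Or.inr ⟨hx, h⟩
    · rintro ((h | h) | h) <;> exact h.1

end Cfsg.Agent.H12
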