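import Cfsg.Agent.H12.StabRoots

/-!
Orbits of the stabiliser of a trio object on the sextets.
-/

set_option autoImplicit false

namespace Cfsg.Agent.H12

open scoped Pointwise

theorem stabTrioSext_check7 : classCheck 1771 sextList sextImg stabTrioGens rootTrioMasks
    96 3 7 7 stabTrioSextTree7 = true := by
  decide +kernel

theorem stabTrioSext_check84 : classCheck 1771 sextList sextImg stabTrioGens rootTrioMasks
    64 0 84 84 stabTrioSextTree84 = true := by
  decide +kernel

theorem stabTrioSext_check336 : classCheck 1771 sextList sextImg stabTrioGens rootTrioMasks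
    48 42 336 336 stabTrioSextTree336 = true := by
  decide +kernel

theorem stabTrioSext_check1344 : classCheck 1771 sextList sextImg stabTrioGens rootTrioMasks
    44 4 1344 1344 stabTrioSextTree1344 = true := by
  decide +kernel

theorem stabTrioSext_cover : classesCover 1771 sextList rootTrioMasks [96, 64, 48, 44] = true := by
  decide +kernel

/-- The orbits, as classes of `phi`. -/
theorem stabTrioSext_orbits (g : M24) :
    (∃ X ∈ sextets, MulAction.orbit ↥(MulAction.stabilizer M24 (g • trioSet 0)) X
        = phiClass famATrio famBSext sextets (g • trioSet 0) 96 ∧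
      (phiClass famATrio famBSext sextets (g • trioSet 0) 96).ncard = 7) ∧
    (∃ X ∈ sextets, MulAction.orbit ↥(MulAction.stabilizer M24 (g • trioSet 0)) X
        = phiClass famATrio famBSext sextets (g • trioSet 0) 64 ∧
      (phiClass famATrio famBSext sextets (g • trioSet 0) 64).ncard = 84) ∧
    (∃ X ∈ sextets, MulAction.orbit ↥(MulAction.stabilizer M24 (g • trioSet 0)) X
        = phiClass famATrio famBSext sextets (g • trioSet 0) 48 ∧
      (phiClass famATrio famBSext sextets (g • trioSet 0) 48).ncard = 336) ∧
    (∃ X ∈ sextets, MulAction.orbit ↥(MulAction.stabilizer M24 (g • trioSet 0)) X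
        = phiClass famATrio famBSext sextets (g • trioSet 0) 44 ∧
      (phiClass famATrio famBSext sextets (g • trioSet 0) 44).ncard = 1344) ∧
    (sextets = phiClass famATrio famBSext sextets (g • trioSet 0) 96 ∪ phiClass famATrio famBSext sextets (g • trioSet 0) 64 ∪ phiClass famATrio famBSext sextets (g • trioSet 0) 48 ∪ phiClass famATrio famBSext sextets (g • trioSet 0) 44) := by
  refine ⟨?_, ?_, ?_, ?_, ?_⟩
  · exact exists_orbit_of_smul (smul_famATrio) (smul_famBSext) smul_mem_sextetsM
      (orbit_eq_phiClass (famA := famATrio) (famB := famBSext) (S := sextets) (a := trioSet 0)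
        (dec := sextSet) (lst := sextList) (smul_famATrio) (smul_famBSext) smul_mem_sextetsM
        sextets_eq (by norm_num) sextSet_injOn lstSext_spec rootTrio_spec stabTrioGens_spec
        imgSext_spec stabTrioSext_check7) g
  · exact exists_orbit_of_smul (smul_famATrio) (smul_famBSext) smul_mem_sextetsM
      (orbit_eq_phiClass (famA := famATrio) (famB := famBSext) (S := sextets) (a := trioSet 0)
        (dec := sextSet) (lst := sextList) (smul_famATrio) (smul_famBSext) smul_mem_sextetsM
        sextets_eq (by norm_num) sextSet_injOn lstSext_spec rootTrio_spec stabTrioGens_spec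
        imgSext_spec stabTrioSext_check84) g
  · exact exists_orbit_of_smul (smul_famATrio) (smul_famBSext) smul_mem_sextetsM
      (orbit_eq_phiClass (famA := famATrio) (famB := famBSext) (S := sextets) (a := trioSet 0)
        (dec := sextSet) (lst := sextList) (smul_famATrio) (smul_famBSext) smul_mem_sextetsM
        sextets_eq (by norm_num) sextSet_injOn lstSext_spec rootTrio_spec stabTrioGens_spec
        imgSext_spec stabTrioSext_check336) g
  · exact exists_orbit_of_smul (smul_famATrio) (smul_famBSext) smul_mem_sextetsM
      (orbit_eq_phiClass (famA := famATrio) (famB := famBSext) (S := sextets) (a := trioSet 0)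
        (dec := sextSet) (lst := sextList) (smul_famATrio) (smul_famBSext) smul_mem_sextetsM
        sextets_eq (by norm_num) sextSet_injOn lstSext_spec rootTrio_spec stabTrioGens_spec
        imgSext_spec stabTrioSext_check1344) g
  · refine Set.ext fun x => ⟨fun hx => ?_, ?_⟩
    · have := phi_mem_of_cover (famA := famATrio) (famB := famBSext) (S := sextets) (a := trioSet 0)
        (dec := sextSet) (lst := sextList) (smul_famATrio) (smul_famBSext) smul_mem_sextetsM
        sextets_eq lstSext_spec rootTrio_spec stabTrioSext_cover g hx
      simp only [List.mem_cons, List.not_mem_nil, or_false] at this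
      rcases this with h | h | h | h
      · exact Or.inl (Or.inl (Or.inl (⟨hx, h⟩)))
      · exact Or.inl (Or.inl (Or.inr ⟨hx, h⟩))
      · exact Or.inl (Or.inr ⟨hx, h⟩)
      · exact Or.inr ⟨hx, h⟩
    · rintro (((h | h) | h) | h) <;> exact h.1

end Cfsg.Agent.H12
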