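import Cfsg.Agent.H12.StabOctOct
import Cfsg.Agent.H12.Five

/-!
Joint stabilisers isomorphic to the symmetric group of degree six.
-/

set_option autoImplicit false

namespace Cfsg.Agent.H12

open scoped Pointwise

theorem setwise_apply_mem {s : Finset GolayPt} {g : Equiv.Perm GolayPt} (h : g • s = s)
    (p : GolayPt) : g p ∈ s ↔ p ∈ s := by
  conv_lhs => rw [← h]
  exact Finset.smul_mem_smul_finset_iff g

/-- A group of permutations preserving a six-element set, faithful on it and of order 720, is the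
symmetric group of degree six. -/
theorem equiv_perm_fin_six (H : Subgroup M24) (s : Finset GolayPt) (hs : s.card = 6)
    (hpres : ∀ g ∈ H, g • s = s)
    (hfaith : ∀ g ∈ H, (∀ p ∈ s, ((g : M24) : Equiv.Perm GolayPt) p = p) → g = 1)
    (hcard : Nat.card H = 720) : Nonempty (H ≃* Equiv.Perm (Fin 6)) := by
  let φ : H →* Equiv.Perm ↥s :=
    { toFun := fun g => ((g : M24) : Equiv.Perm GolayPt).subtypePerm
        (setwise_apply_mem (hpres g.1 g.2))
      map_one' := Equiv.ext fun _ => rfl
      map_mul' := fun _ _ => Equiv.ext fun _ => rfl }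
  have hinj : Function.Injective φ := by
    rw [injective_iff_map_eq_one]
    intro g hg
    exact Subtype.ext (hfaith g.1 g.2 fun p hp => congrArg Subtype.val (Equiv.congr_fun hg ⟨p, hp⟩))
  have hbij : Function.Bijective φ := by
    refine Nat.bijective_iff_injective_and_card φ |>.mpr ⟨hinj, ?_⟩
    rw [hcard, Nat.card_perm, Nat.card_eq_fintype_card, Fintype.card_coe, hs]
    rfl
  exact ⟨(MulEquiv.ofBijective φ hbij).trans
    (Equiv.permCongrHom (Finset.equivFinOfCardEq hs))⟩

theorem faithful_check : (allList fix5 fun h =>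
      (!(Nat.beq (app h 7) 7 && Nat.beq (imgMask h 504864) 504864) || Nat.beq h pone) &&
      (!(Nat.beq (app h 10) 10 && Nat.beq (imgMask h 165759) 165759) || Nat.beq h pone)) = true := by
  decide +kernel

/-- Only the identity fixes six standard points and preserves the companion set. -/
theorem fix_six_trivial {g : Equiv.Perm GolayPt} (hg : g ∈ M24) {m i : ℕ}
    (hmi : (m = 504864 ∧ i = 7) ∨ (m = 165759 ∧ i = 10))
    (hfix : ∀ j < 5, g (pt j) = pt j) (hi : g (pt i) = pt i) (hm : g • fin m = fin m) : g = 1 := by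
  obtain ⟨h, hh, rfl⟩ := fix5_complete hg hfix
  obtain ⟨hp, -, -, -⟩ := fix5_spec hh
  have h1 := allList_spec faithful_check h hh
  have ha : app h i = i := (permOf_fixed_iff hp (by omega)).mp hi
  have hb : imgMask h m = m := fin_inj (imgMask_lt hp m) (by omega) (by rw [← smul_fin hp, hm])
  simp only [Bool.and_eq_true, Bool.or_eq_true, Bool.not_eq_true', ← Bool.not_eq_true,
    Nat.beq_eq] at h1
  have h2 : h = pone := by
    rcases hmi with ⟨rfl, rfl⟩ | ⟨rfl, rfl⟩
    · exact h1.1.resolve_left fun h' => h' ⟨ha, hb⟩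
    · exact h1.2.resolve_left fun h' => h' ⟨ha, hb⟩
  rw [h2, pone_spec.2]

theorem meet_two_check : (Nat.beq (octMask 297) 504864 &&
    Nat.beq (pop (Nat.land 5279 504864)) 2 && allList [0, 1, 2, 3, 4, 7] fun j =>
      Nat.beq (Nat.land (Nat.shiftRight (Nat.land 5279 (Nat.xor 16777215 504864)) j) 1) 1) = true := by
  decide +kernel

/-- A normal form for two octads meeting in two points. -/
theorem exists_meet_two {o o' : Finset GolayPt} (ho : o ∈ octads) (ho' : o' ∈ octads)
    (h₂ : (o ∩ o').card = 2) : ∃ k : M24, k • octSet 0 = o ∧ k • fin 504864 = o' := by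
  obtain ⟨g, rfl⟩ := exists_octad ho
  have hb := smul_mem_octadsM _ (M24.inv_mem g.2) _ ho'
  have hc : (octSet 0 ∩ ((g : Equiv.Perm GolayPt)⁻¹ • o')).card = 2 := by
    rw [← Finset.card_smul_finset (g : Equiv.Perm GolayPt), Finset.smul_finset_inter,
      smul_inv_smul]
    exact h₂
  obtain ⟨he, -, -⟩ := orbit_eq_phiClass (famA := famAOct) (famB := famBOct) (S := octads)
    (a := octSet 0) (dec := octSet) (lst := octList1) smul_famAOct smul_famBOct smul_mem_octadsM
    octads_eq (by norm_num) octSet_injOn lstOct_spec rootOct_spec stabBaseOctGens_spec imgOct_spec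
    octOct_check448
  have hm : ∀ {x : Finset GolayPt}, x ∈ octads → (octSet 0 ∩ x).card = 2 →
      x ∈ phiClass famAOct famBOct octads (octSet 0) 4 :=
    fun hx h => ⟨hx, by rw [phi_singleton, h]; norm_num⟩
  have hck := meet_two_check
  simp only [Bool.and_eq_true, Nat.beq_eq] at hck
  have h1 : fin 504864 ∈ octads := by
    rw [← hck.1.1]
    exact octSet_mem (i := 297) (by norm_num)
  have m1 := hm h1 (by rw [octSet_zero, ← fin_land, card_fin]; exact hck.1.2)
  have m2 := hm hb hc
  rw [← he] at m1 m2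
  rw [← MulAction.orbit_eq_iff.mpr m1] at m2
  obtain ⟨s, hs⟩ := m2
  refine ⟨g * s.1, by rw [mul_smul, s.2], ?_⟩
  have hs' : s.1 • fin 504864 = (g : Equiv.Perm GolayPt)⁻¹ • o' := hs
  rw [mul_smul, hs']
  exact smul_inv_smul (g : Equiv.Perm GolayPt) o'

theorem mem_six_of_meet_two : ∀ j ∈ [0, 1, 2, 3, 4, 7],
    pt j ∈ octSet 0 \ fin 504864 := by
  intro j hj
  have hck := meet_two_check
  rw [Bool.and_eq_true] at hck
  have h := allList_spec hck.2 j hj
  have hj' : j < 24 := by simp only [List.mem_cons, List.not_mem_nil, or_false] at hj; omega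
  rw [octSet_zero, ← fin_sdiff, pt_mem_fin hj', Nat.testBit_eq_decide_div_mod_eq, decide_eq_true_eq,
    ← Nat.shiftRight_eq_div_pow, ← Nat.and_one_is_mod]
  exact Nat.beq_eq.to_iff.mp h

theorem two_octads_symmetric {o o' : Finset GolayPt} (ho : o ∈ octads) (ho' : o' ∈ octads)
    (h₂ : (o ∩ o').card = 2) :
    Nonempty (↥(MulAction.stabilizer M24 o ⊓ MulAction.stabilizer M24 o') ≃* Equiv.Perm (Fin 6)) := by
  refine equiv_perm_fin_six _ (o \ o') ?_ ?_ ?_
    (card_stab_two_octads ho ho' h₂ (Or.inr (Or.inr ⟨rfl, rfl⟩)))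
  · have := Finset.card_sdiff_add_card_inter o o'
    rw [h₂, ho.2] at this
    omega
  · intro g hg
    rw [Subgroup.mem_inf, MulAction.mem_stabilizer_iff, MulAction.mem_stabilizer_iff,
      Subgroup.smul_def, Subgroup.smul_def] at hg
    rw [Subgroup.smul_def, Finset.smul_finset_sdiff, hg.1, hg.2]
  · intro g hg hfix
    rw [Subgroup.mem_inf, MulAction.mem_stabilizer_iff, MulAction.mem_stabilizer_iff,
      Subgroup.smul_def, Subgroup.smul_def] at hg
    obtain ⟨k, rfl, rfl⟩ := exists_meet_two ho ho' h₂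
    have hk : ∀ p ∈ octSet 0 \ fin 504864, ((k⁻¹ * g * k : M24) : Equiv.Perm GolayPt) p = p := by
      intro p hp
      have h := hfix ((k : Equiv.Perm GolayPt) p) (by
        rw [Subgroup.smul_def, Subgroup.smul_def, ← Finset.smul_finset_sdiff]
        exact Finset.smul_mem_smul_finset hp)
      rw [Subgroup.coe_mul, Subgroup.coe_mul, Equiv.Perm.mul_apply, Equiv.Perm.mul_apply, h]
      simp
    have h1 : ((k⁻¹ * g * k : M24) : Equiv.Perm GolayPt) = 1 := by
      refine fix_six_trivial (k⁻¹ * g * k : M24).2 (Or.inl ⟨rfl, rfl⟩) (fun j hj => hk _ ?_)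
        (hk _ (mem_six_of_meet_two 7 (by simp))) ?_
      · exact mem_six_of_meet_two j (by simp only [List.mem_cons, List.not_mem_nil, or_false]; omega)
      · rw [← Subgroup.smul_def, mul_smul, mul_smul, inv_smul_eq_iff]
        exact hg.2
    have h2 : k⁻¹ * g * k = 1 := Subtype.ext h1
    calc g = k * (k⁻¹ * g * k) * k⁻¹ := by group
      _ = 1 := by rw [h2, mul_one, mul_inv_cancel]

/-! ### A hexad on a dodecad -/

theorem dodHexad_tree_check : ((stabDodecadGens.all fun x =>
      genOK x && Nat.beq (imgFast x.2 165759) 165759) && Nat.beq (dodMask 7) 165759 &&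
    classCheck 759 octList1 octImg stabDodecadGens [165759] 36 0 132 132 dodecadHexadTree &&
    allList [0, 1, 2, 3, 4, 10] fun j =>
      Nat.beq (Nat.land (Nat.shiftRight (Nat.land 5279 165759) j) 1) 1) = true := by
  decide +kernel

theorem exists_dodecad' {d : Finset GolayPt} (hd : d ∈ dodecads) :
    ∃ g : M24, g • fin 165759 = d := by
  have h := dodHexad_tree_check
  simp only [Bool.and_eq_true, Nat.beq_eq] at h
  obtain ⟨g, rfl⟩ := exists_dodecad hd
  obtain ⟨g7, hg7⟩ := exists_dodecad (dodSet_mem (i := 7) (by norm_num))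
  refine ⟨g * g7⁻¹, ?_⟩
  have e : fin 165759 = g7 • dodSet 0 := by rw [hg7, dodSet, h.1.1.2]
  rw [e, mul_smul, inv_smul_smul]

theorem hexad_orbit (g : M24) :
    (∃ X ∈ octads, MulAction.orbit ↥(MulAction.stabilizer M24 (g • fin 165759)) X =
        phiClass famAOct famBOct octads (g • fin 165759) 36 ∧
      (phiClass famAOct famBOct octads (g • fin 165759) 36).ncard = 132) ∧
    octSet 0 ∈ phiClass famAOct famBOct octads (fin 165759) 36 ∧
    MulAction.orbit ↥(MulAction.stabilizer M24 (fin 165759)) (octSet 0) =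
        phiClass famAOct famBOct octads (fin 165759) 36 := by
  have h := dodHexad_tree_check
  simp only [Bool.and_eq_true] at h
  obtain ⟨⟨⟨hgens, -⟩, hcls⟩, -⟩ := h
  have hspec : ∀ x ∈ stabDodecadGens, genOK x = true ∧ permOf x.1 • fin 165759 = fin 165759 := by
    intro x hx
    have h := List.all_eq_true.mp hgens x hx
    rw [Bool.and_eq_true, Nat.beq_eq] at h
    exact ⟨h.1, by rw [smul_fin_fast h.1 (by norm_num), h.2]⟩
  have hroot : famAOct (fin 165759) = fins [165759] ∧ (fins [165759]).card = [165759].length := by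
    simp [fins]
  have he := orbit_eq_phiClass (famA := famAOct) (famB := famBOct) (S := octads)
    (a := fin 165759) (dec := octSet) (lst := octList1) smul_famAOct smul_famBOct smul_mem_octadsM
    octads_eq (by norm_num) octSet_injOn lstOct_spec hroot hspec imgOct_spec hcls
  refine ⟨exists_orbit_of_smul smul_famAOct smul_famBOct smul_mem_octadsM he g, ?_, he.1⟩
  rw [← he.1]
  exact MulAction.mem_orbit_self _

theorem card_stab_dodecad {d : Finset GolayPt} (hd : d ∈ dodecads) :
    Nat.card ↥(MulAction.stabilizer M24 d) = 95040 := by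
  have horb : MulAction.orbit M24 d = dodecads := by
    ext x
    constructor
    · rintro ⟨g, rfl⟩
      exact (smul_mem_dodecads g.2).mpr hd
    · intro hx
      obtain ⟨a, rfl⟩ := exists_dodecad hd
      obtain ⟨b, rfl⟩ := exists_dodecad hx
      exact ⟨b * a⁻¹, by simp [mul_smul]⟩
  have h1 := Subgroup.index_mul_card (MulAction.stabilizer M24 d)
  rw [MulAction.index_stabilizer, horb, dodecads_eq, Set.InjOn.ncard_image dodSet_injOn,
    Set.ncard_Iio_nat, H11.card_M24] at h1
  omega

theorem hexad_mem_phi {d o : Finset GolayPt} (ho : o ∈ octads) (hc : (o ∩ d).card = 6) :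
    o ∈ phiClass famAOct famBOct octads d 36 :=
  ⟨ho, by rw [phi_singleton, Finset.inter_comm, hc]; norm_num⟩

theorem exists_hexad {d C : Finset GolayPt} (hd : d ∈ dodecads) (hC : C ∈ hexadsOn d) :
    ∃ k : M24, k • fin 165759 = d ∧ k • (octSet 0 ∩ fin 165759) = C := by
  obtain ⟨g, rfl⟩ := exists_dodecad' hd
  obtain ⟨hc6, o, ho, rfl⟩ := hC
  obtain ⟨⟨X, -, he, -⟩, h0, -⟩ := hexad_orbit g
  have m1 : g • octSet 0 ∈ phiClass famAOct famBOct octads (g • fin 165759) 36 := by
    rw [← smul_phiClass smul_famAOct smul_famBOct smul_mem_octadsM]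
    exact Set.smul_mem_smul_set h0
  have m2 := hexad_mem_phi ho hc6
  rw [← he] at m1 m2
  rw [← MulAction.orbit_eq_iff.mpr m1] at m2
  obtain ⟨s, hs⟩ := m2
  have hsd : s.1 • (g • fin 165759) = g • fin 165759 := s.2
  refine ⟨s.1 * g, by rw [mul_smul, hsd], ?_⟩
  have hs' : s.1 • (g • octSet 0) = o := hs
  rw [← hs', Subgroup.smul_def, Finset.smul_finset_inter, ← Subgroup.smul_def, ← Subgroup.smul_def,
    mul_smul, mul_smul, hsd]

theorem hexad_stab_eq {d o : Finset GolayPt} (ho : o ∈ octads) (hc : (o ∩ d).card = 6) :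
    MulAction.stabilizer M24 d ⊓ MulAction.stabilizer M24 (o ∩ d) =
      MulAction.stabilizer M24 d ⊓ MulAction.stabilizer M24 o := by
  ext g
  simp only [Subgroup.mem_inf, MulAction.mem_stabilizer_iff, Subgroup.smul_def]
  constructor
  · rintro ⟨hd, hC⟩
    refine ⟨hd, octad_unique ((smul_mem_octads g.2).mpr ho) ho ?_⟩
    have hsub : o ∩ d ⊆ (g : Equiv.Perm GolayPt) • o ∩ o := by
      refine Finset.subset_inter ?_ Finset.inter_subset_left
      conv_lhs => rw [← hC]
      exact Finset.smul_finset_subset_smul_finset Finset.inter_subset_left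
    have := Finset.card_le_card hsub
    omega
  · rintro ⟨hd, ho'⟩
    exact ⟨hd, by rw [Finset.smul_finset_inter, hd, ho']⟩

theorem card_stab_hexad {d C : Finset GolayPt} (hd : d ∈ dodecads) (hC : C ∈ hexadsOn d) :
    Nat.card ↥(MulAction.stabilizer M24 d ⊓ MulAction.stabilizer M24 C) = 720 := by
  obtain ⟨g, rfl⟩ := exists_dodecad' hd
  obtain ⟨hc6, o, ho, rfl⟩ := hC
  rw [hexad_stab_eq ho hc6]
  obtain ⟨⟨X, -, he, hn⟩, -, -⟩ := hexad_orbit g
  have m := hexad_mem_phi ho hc6
  rw [← he] at m
  have h := ncard_orbit_mul_card_inf (G := M24) (g • fin 165759) o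
  rw [MulAction.orbit_eq_iff.mpr m, he, hn, card_stab_dodecad hd] at h
  omega

theorem compl_hexad {d C : Finset GolayPt} (hd : d ∈ dodecads) (hC : C ∈ hexadsOn d) :
    d \ C ∈ hexadsOn d := by
  obtain ⟨hc6, o, ho, rfl⟩ := hC
  have h6 : (d \ (o ∩ d)).card = 6 := by
    have := Finset.card_sdiff_add_card_inter d (o ∩ d)
    rw [Finset.inter_eq_right.mpr Finset.inter_subset_right, hc6, hd.2] at this
    omega
  refine ⟨h6, fin (mask o ^^^ mask d), ?_, ?_⟩
  · have e : fin (mask o ^^^ mask d) = (o \ d) ∪ (d \ o) := by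
      ext p
      have h1 := mem_fin (m := mask o) (p := p)
      have h2 := mem_fin (m := mask d) (p := p)
      rw [fin_mask] at h1 h2
      rw [mem_fin, Nat.testBit_xor, Finset.mem_union, Finset.mem_sdiff, Finset.mem_sdiff, h1, h2]
      cases (mask o).testBit (idx p) <;> cases (mask d).testBit (idx p) <;> simp
    refine ⟨(fin_mem_supports (Nat.xor_lt_two_pow (mask_lt o) (mask_lt d))).mpr
      (isCode_xor ((mem_supports_iff o).mp ho.1) ((mem_supports_iff d).mp hd.1)), ?_⟩
    rw [e, Finset.card_union_of_disjoint disjoint_sdiff_sdiff]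
    have h2 := Finset.card_sdiff_add_card_inter o d
    have h3 := Finset.card_sdiff_add_card_inter d o
    rw [Finset.inter_comm d o] at h3
    rw [ho.2] at h2
    rw [hd.2] at h3
    omega
  · ext p
    have h1 := mem_fin (m := mask o) (p := p)
    have h2 := mem_fin (m := mask d) (p := p)
    rw [fin_mask] at h1 h2
    simp only [Finset.mem_inter, Finset.mem_sdiff, mem_fin, Nat.testBit_xor, h1, h2]
    cases (mask o).testBit (idx p) <;> cases (mask d).testBit (idx p) <;> simp

theorem hexad_faithful {d C : Finset GolayPt} (hd : d ∈ dodecads) (hC : C ∈ hexadsOn d)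
    {g : M24} (hg : g ∈ MulAction.stabilizer M24 d)
    (hfix : ∀ p ∈ C, (g : Equiv.Perm GolayPt) p = p) : g = 1 := by
  obtain ⟨k, rfl, rfl⟩ := exists_hexad hd hC
  have hck := dodHexad_tree_check
  rw [Bool.and_eq_true] at hck
  have hk : ∀ j ∈ [0, 1, 2, 3, 4, 10],
      ((k⁻¹ * g * k : M24) : Equiv.Perm GolayPt) (pt j) = pt j := by
    intro j hj
    have hj' : j < 24 := by simp only [List.mem_cons, List.not_mem_nil, or_false] at hj; omega
    have hmem : pt j ∈ octSet 0 ∩ fin 165759 := by
      rw [octSet_zero, ← fin_land, pt_mem_fin hj', Nat.testBit_eq_decide_div_mod_eq,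
        decide_eq_true_eq, ← Nat.shiftRight_eq_div_pow, ← Nat.and_one_is_mod]
      exact Nat.beq_eq.to_iff.mp (allList_spec hck.2 j hj)
    have h := hfix ((k : Equiv.Perm GolayPt) (pt j)) (Finset.smul_mem_smul_finset hmem)
    rw [Subgroup.coe_mul, Subgroup.coe_mul, Equiv.Perm.mul_apply, Equiv.Perm.mul_apply, h]
    simp
  have h1 : ((k⁻¹ * g * k : M24) : Equiv.Perm GolayPt) = 1 := by
    refine fix_six_trivial (k⁻¹ * g * k : M24).2 (Or.inr ⟨rfl, rfl⟩) (fun j hj => hk j ?_)
      (hk 10 (by simp)) ?_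
    · simp only [List.mem_cons, List.not_mem_nil, or_false]; omega
    · rw [← Subgroup.smul_def, mul_smul, mul_smul, inv_smul_eq_iff]
      exact hg
  have h2 : k⁻¹ * g * k = 1 := Subtype.ext h1
  calc g = k * (k⁻¹ * g * k) * k⁻¹ := by group
    _ = 1 := by rw [h2, mul_one, mul_inv_cancel]

end Cfsg.Agent.H12
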