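import Cfsg.Agent.H12.Families
import Cfsg.Agent.H12.OrbitData

/-!
`M24` is transitive on octads, trios, sextets and dodecads, by spanning trees.
-/

set_option autoImplicit false

namespace Cfsg.Agent.H12

open scoped Pointwise

theorem m24GenData_ok : m24GenData.all genOK = true := by decide +kernel

theorem m24GenData_mem {k : ℕ} (hk : k < m24GenData.length) :
    genOK (m24GenData.getD k (0, [])) = true := by
  refine List.all_eq_true.mp m24GenData_ok _ ?_
  rw [List.getD_eq_getElem?_getD, List.getElem?_eq_getElem hk]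
  exact List.getElem_mem hk

/-- A generator of `M24` from the data list. -/
noncomputable def m24Gen (k : ℕ) : M24 :=
  if hk : k < m24GenData.length then
    ⟨permOf (m24GenData.getD k (0, [])).1, (genOK_spec (m24GenData_mem hk)).2.2⟩
  else 1

theorem m24Gen_smul {β : Type*} [MulAction (Equiv.Perm GolayPt) β] {k : ℕ}
    (hk : k < m24GenData.length) (x : β) :
    m24Gen k • x = permOf (m24GenData.getD k (0, [])).1 • x := by
  rw [m24Gen, dif_pos hk]
  rfl

theorem octTree_ok :
    (treeCheck 759 m24GenData.length (fun k => octImg (m24GenData.getD k (0, [])).2) 0 octTree 759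
      && coverCheck 759 octTree 759 (fun _ => true)) = true := by
  decide +kernel

theorem trioTree_ok :
    (treeCheck 3795 m24GenData.length (fun k => trioImg (m24GenData.getD k (0, [])).2) 0 trioTree 3795
      && coverCheck 3795 trioTree 3795 (fun _ => true)) = true := by
  decide +kernel

theorem sextTree_ok :
    (treeCheck 1771 m24GenData.length (fun k => sextImg (m24GenData.getD k (0, [])).2) 0 sextTree 1771
      && coverCheck 1771 sextTree 1771 (fun _ => true)) = true := by
  decide +kernel

/-- Image check for dodecads. -/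
noncomputable def dodImg (T : List ℕ) (i j : ℕ) : Bool :=
  Nat.beq (imgFast T (dodMask i)) (dodMask j)

theorem dodImg_spec {x : ℕ × List ℕ} (h : genOK x = true) {i j : ℕ} (hi : i < 2576)
    (hc : dodImg x.2 i j = true) : permOf x.1 • dodSet i = dodSet j := by
  rw [dodImg, Nat.beq_eq] at hc
  rw [dodSet, smul_fin_fast h (dodMask_lt hi), hc]
  rfl

theorem dodTree_ok :
    (treeCheck 2576 m24GenData.length (fun k => dodImg (m24GenData.getD k (0, [])).2) 0 dodTree 2576
      && coverCheck 2576 dodTree 2576 (fun _ => true)) = true := by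
  decide +kernel

/-- Transitivity on octads. -/
theorem exists_octad {o : Finset GolayPt} (ho : o ∈ octads) : ∃ g : M24, g • octSet 0 = o := by
  rw [octads_eq] at ho
  obtain ⟨i, hi, rfl⟩ := ho
  obtain ⟨ht, hc⟩ := Bool.and_eq_true_iff.mp octTree_ok
  refine MulAction.mem_orbit_iff.mp
    (class_subset_orbit (dec := octSet) (gen := m24Gen) ?_ ht hc hi rfl)
  intro k hk i hi j _ hij
  rw [m24Gen_smul hk]
  exact octImg_spec (m24GenData_mem hk) hi hij

/-- Transitivity on trios. -/
theorem exists_trio {T : Finset (Finset GolayPt)} (hT : T ∈ trios) :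
    ∃ g : M24, g • trioSet 0 = T := by
  rw [trios_eq] at hT
  obtain ⟨i, hi, rfl⟩ := hT
  obtain ⟨ht, hc⟩ := Bool.and_eq_true_iff.mp trioTree_ok
  refine MulAction.mem_orbit_iff.mp
    (class_subset_orbit (dec := trioSet) (gen := m24Gen) ?_ ht hc hi rfl)
  intro k hk i hi j hj hij
  rw [m24Gen_smul hk]
  exact trioImg_spec (m24GenData_mem hk) hi hj hij

/-- Transitivity on sextets. -/
theorem exists_sextet {S : Finset (Finset GolayPt)} (hS : S ∈ sextets) :
    ∃ g : M24, g • sextSet 0 = S := by
  rw [sextets_eq] at hS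
  obtain ⟨i, hi, rfl⟩ := hS
  obtain ⟨ht, hc⟩ := Bool.and_eq_true_iff.mp sextTree_ok
  refine MulAction.mem_orbit_iff.mp
    (class_subset_orbit (dec := sextSet) (gen := m24Gen) ?_ ht hc hi rfl)
  intro k hk i hi j hj hij
  rw [m24Gen_smul hk]
  exact sextImg_spec (m24GenData_mem hk) hi hj hij

/-- Transitivity on dodecads. -/
theorem exists_dodecad {d : Finset GolayPt} (hd : d ∈ dodecads) :
    ∃ g : M24, g • dodSet 0 = d := by
  rw [dodecads_eq] at hd
  obtain ⟨i, hi, rfl⟩ := hd
  obtain ⟨ht, hc⟩ := Bool.and_eq_true_iff.mp dodTree_ok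
  refine MulAction.mem_orbit_iff.mp
    (class_subset_orbit (dec := dodSet) (gen := m24Gen) ?_ ht hc hi rfl)
  intro k hk i hi j _ hij
  rw [m24Gen_smul hk]
  exact dodImg_spec (m24GenData_mem hk) hi hij

end Cfsg.Agent.H12
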