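import Cfsg.Agent.H12.StabRoots
import Cfsg.Agent.H12.Classes
import Cfsg.Agent.H12.OrbitData2

/-!
Sextets under the stabiliser of a three-element set of points.
-/

set_option autoImplicit false

namespace Cfsg.Agent.H12

open scoped Pointwise

theorem tripleGens_check : (stabTripleGens.all fun x =>
    genOK x && Nat.beq (imgFast x.2 7) 7) = true := by
  decide +kernel

theorem tripleGens_spec :
    ∀ x ∈ stabTripleGens, genOK x = true ∧ permOf x.1 • fin 7 = fin 7 := by
  intro x hx
  have h := List.all_eq_true.mp tripleGens_check x hx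
  rw [Bool.and_eq_true, Nat.beq_eq] at h
  exact ⟨h.1, by rw [smul_fin_fast h.1 (by norm_num), h.2]⟩

theorem tripleSext_check21 : classCheck 1771 sextList sextImg stabTripleGens [7]
    9 0 21 21 tripleSextTree21 = true := by decide +kernel

theorem tripleSext_check630 : classCheck 1771 sextList sextImg stabTripleGens [7]
    5 2 630 630 tripleSextTree630 = true := by decide +kernel

theorem tripleSext_check1120 : classCheck 1771 sextList sextImg stabTripleGens [7]
    3 9 1120 1120 tripleSextTree1120 = true := by decide +kernel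

/-- Number of tetrads of a list meeting the standard triple. -/
noncomputable def meetCount (L : List ℕ) : ℕ :=
  (L.filter fun t => !(Nat.beq (Nat.land t 7) 0)).length

theorem meetCount_check : (allBelow 11 1771 fun i =>
    forceNat (meetCount (sextList i)) fun c => forceNat (phiList [7] (sextList i)) fun f =>
      (Nat.beq c 1 && Nat.beq f 9) || (Nat.beq c 2 && Nat.beq f 5) ||
        (Nat.beq c 3 && Nat.beq f 3)) = true := by
  decide +kernel

theorem triple_spec : ({fin 7} : Finset (Finset GolayPt)) = fins [7] ∧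
    (fins [7]).card = [7].length := by
  simp [fins]

theorem filter_card_fins {L : List ℕ} (hL : (fins L).card = L.length) :
    ((fins L).filter fun t => (t ∩ fin 7).Nonempty).card = meetCount L := by
  classical
  have hnd : (L.map fin).Nodup := by
    rw [fins, List.card_toFinset, ← List.length_map (as := L) fin] at hL
    exact List.dedup_eq_self.mp ((List.dedup_sublist _).eq_of_length hL)
  have he : (fins L).filter (fun t => (t ∩ fin 7).Nonempty) =
      ((L.filter fun t => !(Nat.beq (Nat.land t 7) 0)).map fin).toFinset := by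
    ext s
    simp only [Finset.mem_filter, mem_fins, List.mem_toFinset, List.mem_map, List.mem_filter,
      Bool.not_eq_true', ← Bool.not_eq_true, Nat.beq_eq]
    have key : ∀ m, (fin m ∩ fin 7).Nonempty ↔ ¬ Nat.land m 7 = 0 := by
      intro m
      rw [← fin_land, Finset.nonempty_iff_ne_empty, ← fin_zero, ne_eq,
        fin_inj_iff (lt_of_le_of_lt Nat.and_le_right (by norm_num)) (by norm_num)]
      exact Iff.rfl
    constructor
    · rintro ⟨⟨m, hm, rfl⟩, h⟩
      exact ⟨m, ⟨hm, (key m).mp h⟩, rfl⟩
    · rintro ⟨m, ⟨hm, h⟩, rfl⟩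
      exact ⟨⟨m, hm, rfl⟩, (key m).mpr h⟩
  rw [he, List.toFinset_card_of_nodup, List.length_map]
  · rfl
  · exact hnd.sublist (List.filter_sublist.map fin)

theorem exists_triple {Y : Finset GolayPt} (hY : Y.card = 3) : ∃ k ∈ M24, k • fin 7 = Y := by
  obtain ⟨a, b, c, hab, hac, hbc, rfl⟩ := Finset.card_eq_three.mp hY
  have hu : ({a, b, c} : Finset GolayPt).card < (Finset.univ : Finset GolayPt).card := by
    rw [hY, Finset.card_univ, Fintype.card_option, ZMod.card]; norm_num
  obtain ⟨d, -, hd⟩ := Finset.exists_mem_notMem_of_card_lt_card hu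
  have hu' : ({a, b, c, d} : Finset GolayPt).card < (Finset.univ : Finset GolayPt).card := by
    refine lt_of_le_of_lt Finset.card_le_four ?_
    rw [Finset.card_univ, Fintype.card_option, ZMod.card]; norm_num
  obtain ⟨e, -, he⟩ := Finset.exists_mem_notMem_of_card_lt_card hu'
  simp only [Finset.mem_insert, Finset.mem_singleton, not_or] at hd he
  obtain ⟨k, hk, k0, k1, k2, -, -⟩ := exists_five (a := a) (b := b) (c := c) (d := d) (e := e)
    (by simp [hab, hac, hbc, Ne.symm hd.1, Ne.symm hd.2.1, Ne.symm hd.2.2, Ne.symm he.1,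
      Ne.symm he.2.1, Ne.symm he.2.2.1, Ne.symm he.2.2.2])
  refine ⟨k, hk, ?_⟩
  have h7 : fin 7 = {pt 0, pt 1, pt 2} := by decide +kernel
  rw [h7, Finset.smul_finset_insert, Finset.smul_finset_insert, Finset.smul_finset_singleton,
    Equiv.Perm.smul_def, Equiv.Perm.smul_def, Equiv.Perm.smul_def, k0, k1, k2]

/-- Number of tetrads of `S` meeting `Y`. -/
def meetNum (Y : Finset GolayPt) (S : Finset (Finset GolayPt)) : ℕ :=
  (S.filter fun t => (t ∩ Y).Nonempty).card

theorem meetNum_smul (g : Equiv.Perm GolayPt) (Y : Finset GolayPt) (S : Finset (Finset GolayPt)) :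
    meetNum (g • Y) (g • S) = meetNum Y S := by
  unfold meetNum
  rw [Finset.smul_finset_def (a := g) (s := S), Finset.filter_image,
    Finset.card_image_of_injective _ (MulAction.injective g)]
  congr 2
  funext t
  simp [← Finset.smul_finset_inter]

theorem meetNum_iff_phi {i : ℕ} (hi : i < 1771) {n c : ℕ}
    (h : (n = 1 ∧ c = 9) ∨ (n = 2 ∧ c = 5) ∨ (n = 3 ∧ c = 3)) :
    meetNum (fin 7) (sextSet i) = n ↔ phi {fin 7} (sextSet i) = c := by
  obtain ⟨hs, hcard⟩ := sextList_spec hi
  have hh := allBelow_spec meetCount_check hi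
  simp only [forceNat_eq, Bool.and_eq_true, Bool.or_eq_true, Nat.beq_eq] at hh
  rw [meetNum, hs, filter_card_fins hcard, triple_spec.1, phi_fins triple_spec.2 hcard]
  omega

theorem triple_class {k : Equiv.Perm GolayPt} (hk : k ∈ M24) {n c : ℕ}
    (h : (n = 1 ∧ c = 9) ∨ (n = 2 ∧ c = 5) ∨ (n = 3 ∧ c = 3)) {S : Finset (Finset GolayPt)}
    (hS : S ∈ sextets) :
    meetNum (k • fin 7) S = n ↔ phi {k • fin 7} S = c := by
  have hS' := smul_mem_sextets (M24.inv_mem hk) hS
  obtain ⟨i, hi, he⟩ := sextets_eq ▸ hS'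
  have hSe : S = k • sextSet i := by rw [he, smul_inv_smul]
  rw [hSe, meetNum_smul, ← Finset.smul_finset_singleton, phi_smul]
  exact meetNum_iff_phi hi h

theorem triple_orbit {k : Equiv.Perm GolayPt} (hk : k ∈ M24) {c root m len : ℕ} {tbl : List ℕ}
    (h : classCheck 1771 sextList sextImg stabTripleGens [7] c root m len tbl = true) :
    {S | S ∈ sextets ∧ phi {k • fin 7} S = c}.ncard = m ∧
      ∀ S S', S ∈ sextets → S' ∈ sextets → phi {k • fin 7} S = c → phi {k • fin 7} S' = c →
        ∃ g ∈ M24, g • (k • fin 7) = k • fin 7 ∧ g • S = S' := by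
  obtain ⟨X, -, he, hc⟩ := exists_orbit_of_smul (smul_famAOct) (smul_famBSext) smul_mem_sextetsM
    (orbit_eq_phiClass (famA := famAOct) (famB := famBSext) (S := sextets) (a := fin 7)
      (dec := sextSet) (lst := sextList) smul_famAOct smul_famBSext smul_mem_sextetsM sextets_eq
      (by norm_num) sextSet_injOn lstSext_spec triple_spec tripleGens_spec imgSext_spec h)
    (⟨k, hk⟩ : M24)
  refine ⟨hc, fun S S' hS hS' h1 h2 => ?_⟩
  have m1 : S ∈ phiClass famAOct famBSext sextets ((⟨k, hk⟩ : M24) • fin 7) c := ⟨hS, h1⟩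
  have m2 : S' ∈ phiClass famAOct famBSext sextets ((⟨k, hk⟩ : M24) • fin 7) c := ⟨hS', h2⟩
  rw [← he] at m1 m2
  rw [← MulAction.orbit_eq_iff.mpr m1] at m2
  obtain ⟨g, hg⟩ := m2
  exact ⟨g.1.1, g.1.2, g.2, hg⟩

end Cfsg.Agent.H12
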